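import Cfsg.Agent.H927.FrameTop
import Cfsg.Agent.H913.UExt6

/-!
# Orthonormal frames in `SU_n(q)`, `q` odd: conjugates of torus elements that are monomial (helper913)

`X` is a subgroup of `SU_n(q)`, `n ≥ 5`, containing the monomial elements, in which every element fixing a coordinate
line is monomial. If `g ∈ X` and `g τ g⁻¹` is monomial, `τ = diag(a, a⁻¹, 1, ..., 1)` with `a ^ 2, a ^ 3 ≠ 1`,
then `g` is monomial.
-/

set_option autoImplicit false
set_option linter.unusedSectionVars false

namespace Cfsg.Agent.H913.Fr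

open Module Cfsg Cfsg.Agent.LieClassical.HermBasic Cfsg.Agent.LieClassical.HermSiegel
open Cfsg.Agent.H927

variable {F : Type*} [Field F] {n q : ℕ}

theorem mono_mul {g h : SU n F q} (hg : IsMono g) (hh : IsMono h) : IsMono (g * h) := by
  intro j
  obtain ⟨i, c, hi⟩ := hh j
  obtain ⟨k, d, hk⟩ := hg i
  exact ⟨k, c * d, by rw [act_mul, hi, act_smul, hk, smul_smul]⟩

theorem single_ne_zero' (i : Fin n) : (Pi.single i 1 : Fin n → F) ≠ 0 := by
  intro h
  have := congrFun h i
  rw [Pi.single_eq_same] at this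
  exact one_ne_zero this

theorem mono_perm {g : SU n F q} (hg : IsMono g) : ∃ (σ : Equiv.Perm (Fin n)) (d : Fin n → F),
    (∀ j, act g (Pi.single j 1) = d j • Pi.single (σ j) 1) ∧ ∀ j, d j ≠ 0 := by
  choose σ d hσ using hg
  have hd : ∀ j, d j ≠ 0 := by
    intro j h0
    have := hσ j
    rw [h0, zero_smul] at this
    exact single_ne_zero' j ((act_eq_zero g).1 this)
  have hinj : Function.Injective σ := by
    intro j k hjk
    by_contra hne
    have h1 : act g (d k • Pi.single j 1 - d j • Pi.single k 1) = 0 := by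
      rw [act_sub, act_smul, act_smul, hσ, hσ, hjk, smul_smul, smul_smul, mul_comm, sub_self]
    have h2 := (act_eq_zero g).1 h1
    have h3 := congrFun h2 j
    rw [Pi.sub_apply, Pi.smul_apply, Pi.smul_apply, Pi.single_eq_same, Pi.single_eq_of_ne hne, smul_zero,
      sub_zero, smul_eq_mul, mul_one] at h3
    exact hd k h3
  exact ⟨Equiv.ofBijective σ (Finite.injective_iff_bijective.1 hinj), d, hσ, hd⟩

theorem mono_inv {g : SU n F q} (hg : IsMono g) : IsMono g⁻¹ := by
  obtain ⟨σ, d, hσ, hd⟩ := mono_perm hg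
  intro i
  refine ⟨σ.symm i, (d (σ.symm i))⁻¹, ?_⟩
  rw [act_eq_iff, inv_inv, act_smul, hσ, smul_smul, inv_mul_cancel₀ (hd _), one_smul,
    Equiv.apply_symm_apply]

section

variable [Fintype F] (hF : Fintype.card F = q ^ 2)
include hF

theorem norm_of_act {g : SU n F q} {i j : Fin n} {c : F} (h : act g (Pi.single j 1) = c • Pi.single i 1) :
    c * c ^ q = 1 := by
  have h1 := herm_act g (Pi.single j 1) (Pi.single j 1)
  rw [h, herm_smul_left, herm_smul_right, herm_single_self hF, herm_single_self hF, mul_one] at h1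
  exact h1

/-- coordinates -/
theorem act_coord {g : SU n F q} {i j : Fin n} {c : F} (h : act g (Pi.single j 1) = c • Pi.single i 1)
    (x : Fin n → F) : act g x i = c * x j := by
  have h1 := herm_act g x (Pi.single j 1)
  rw [h, herm_smul_right, H927.herm_single_right hF, H927.herm_single_right hF] at h1
  have h2 := norm_of_act hF h
  linear_combination c * h1 - act g x i * h2

theorem exists_tau {a : F} (ha : a * a ^ q = 1) {i j : Fin n} (hij : i ≠ j) :
    ∃ t : SU n F q, IsMono t ∧ ∀ x, act t x =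
      x + ((a - 1) * x i) • Pi.single i 1 + ((a ^ q - 1) * x j) • Pi.single j 1 := by
  obtain ⟨t, ht⟩ := exists_tor hF (herm_single_self hF i) (herm_single_self hF j)
    (herm_single_ne hF hij) ha
  simp only [H927.herm_single_right hF] at ht
  refine ⟨t, fun m => ?_, ht⟩
  by_cases hmi : m = i
  · subst hmi
    refine ⟨m, a, ?_⟩
    rw [ht, Pi.single_eq_same, Pi.single_eq_of_ne hij.symm, mul_zero, zero_smul, add_zero, mul_one, sub_smul,
      one_smul]
    abel
  by_cases hmj : m = j
  · subst hmj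
    refine ⟨m, a ^ q, ?_⟩
    rw [ht, Pi.single_eq_same, Pi.single_eq_of_ne hij, mul_zero, zero_smul, add_zero, mul_one, sub_smul,
      one_smul]
    abel
  · refine ⟨m, 1, ?_⟩
    rw [ht, Pi.single_eq_of_ne (Ne.symm hmi), Pi.single_eq_of_ne (Ne.symm hmj), mul_zero, mul_zero, zero_smul,
      zero_smul, add_zero, add_zero, one_smul]

theorem act_conj {t g : SU n F q} {a b : F} {i j : Fin n} (ht : ∀ x, act t x =
      x + (a * x i) • Pi.single i 1 + (b * x j) • Pi.single j 1) (x : Fin n → F) :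
    act (g * t * g⁻¹) x = x + (a * hermForm n F q x (act g (Pi.single i 1))) • act g (Pi.single i 1)
      + (b * hermForm n F q x (act g (Pi.single j 1))) • act g (Pi.single j 1) := by
  have h1 : ∀ l, act g⁻¹ x l = hermForm n F q x (act g (Pi.single l 1)) := by
    intro l
    rw [← H927.herm_single_right hF (act g⁻¹ x) l, ← herm_act g, act_act_inv]
  rw [act_mul, act_mul, ht, act_add, act_add, act_smul, act_smul, act_act_inv, h1, h1]

end

/-- a vector in the span of two coordinate vectors -/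
theorem mem_pair {k l : Fin n} (hkl : k ≠ l) {x : Fin n → F} (hx : ∀ m, m ≠ k → m ≠ l → x m = 0) :
    x = x k • Pi.single k 1 + x l • Pi.single l 1 := by
  funext m
  rw [Pi.add_apply, Pi.smul_apply, Pi.smul_apply, smul_eq_mul, smul_eq_mul]
  by_cases hmk : m = k
  · subst hmk
    rw [Pi.single_eq_same, Pi.single_eq_of_ne hkl, mul_one, mul_zero, add_zero]
  by_cases hml : m = l
  · subst hml
    rw [Pi.single_eq_same, Pi.single_eq_of_ne hkl.symm, mul_one, mul_zero, zero_add]
  · rw [hx m hmk hml, Pi.single_eq_of_ne hmk, Pi.single_eq_of_ne hml, mul_zero, mul_zero, add_zero]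

/-- two planes -/
theorem span_swap {V : Type*} [AddCommGroup V] [Module F V] {e1 e2 f1 f2 : V}
    (he : ∀ a b : F, a • e1 + b • e2 = 0 → a = 0 ∧ b = 0)
    (h1 : ∃ a b : F, e1 = a • f1 + b • f2) (h2 : ∃ a b : F, e2 = a • f1 + b • f2) {x : V}
    (hx : ∃ a b : F, x = a • f1 + b • f2) : ∃ a b : F, x = a • e1 + b • e2 := by
  obtain ⟨a1, b1, rfl⟩ := h1
  obtain ⟨a2, b2, rfl⟩ := h2
  obtain ⟨s, t, rfl⟩ := hx
  have hdet : a1 * b2 - a2 * b1 ≠ 0 := by
    intro h0
    have h3 := he b2 (-b1) (by
      have : b2 • (a1 • f1 + b1 • f2) + (-b1) • (a2 • f1 + b2 • f2) = (a1 * b2 - a2 * b1) • f1 := by module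
      rw [this, h0, zero_smul])
    have h4 := he a2 (-a1) (by
      have : a2 • (a1 • f1 + b1 • f2) + (-a1) • (a2 • f1 + b2 • f2) = (-(a1 * b2 - a2 * b1)) • f2 := by module
      rw [this, h0, neg_zero, zero_smul])
    have h5 := he 1 0 (by rw [h3.1, neg_eq_zero.1 h3.2, neg_eq_zero.1 h4.2, h4.1]; simp)
    exact one_ne_zero h5.1
  refine ⟨(a1 * b2 - a2 * b1)⁻¹ * (s * b2 - t * a2), (a1 * b2 - a2 * b1)⁻¹ * (t * a1 - s * b1), ?_⟩
  have e1 : ((a1 * b2 - a2 * b1)⁻¹ * (s * b2 - t * a2)) • (a1 • f1 + b1 • f2) +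
      ((a1 * b2 - a2 * b1)⁻¹ * (t * a1 - s * b1)) • (a2 • f1 + b2 • f2) =
      ((a1 * b2 - a2 * b1)⁻¹ * (a1 * b2 - a2 * b1)) • (s • f1 + t • f2) := by module
  rw [e1, inv_mul_cancel₀ hdet, one_smul]

section Main

variable [Fintype F] (hF : Fintype.card F = q ^ 2)
include hF

theorem diag_supp {y : SU n F q} {f f' : Fin n → F} (hf : hermForm n F q f f = 1)
    (hf' : hermForm n F q f' f' = 1) (hff : hermForm n F q f f' = 0) {a b : F} (ha1 : a ≠ 1) (hab : a ≠ b)
    (hact : ∀ x, act y x = x + ((a - 1) * hermForm n F q x f) • f + ((b - 1) * hermForm n F q x f') • f')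
    {m : Fin n} {d : F} (hd : act y (Pi.single m 1) = d • Pi.single m 1) (hm : f m ≠ 0) {l : Fin n}
    (hl : l ≠ m) : f l = 0 := by
  have hyf : act y f = a • f := by
    rw [hact, hf, hff, mul_zero, zero_smul, add_zero, mul_one, sub_smul, one_smul]; abel
  have h3 := act_coord hF hd f
  rw [hyf, Pi.smul_apply, smul_eq_mul] at h3
  have h4 : d = a := (mul_right_cancel₀ hm h3).symm
  have h5 := hact (Pi.single m 1)
  rw [hd, h4] at h5
  set x : Fin n → F := Pi.single m 1 with hx
  have h6 := congrArg (fun z => hermForm n F q z f') h5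
  simp only [herm_add_left, herm_smul_left, hff, hf'] at h6
  have h7 : (a - b) * hermForm n F q x f' = 0 := by linear_combination h6
  have h8 := (mul_eq_zero.1 h7).resolve_left (sub_ne_zero.2 hab)
  rw [h8, mul_zero, zero_smul, add_zero] at h5
  have h9 : hermForm n F q x f ≠ 0 := by
    intro h0
    rw [h0, mul_zero, zero_smul, add_zero] at h5
    have h10 := congrFun h5 m
    rw [Pi.smul_apply, hx, Pi.single_eq_same, smul_eq_mul, mul_one] at h10
    exact ha1 h10
  have h10 := congrFun h5 l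
  rw [Pi.smul_apply, Pi.add_apply, Pi.smul_apply, hx, Pi.single_eq_of_ne hl, smul_zero, zero_add, smul_eq_mul,
    ← hx] at h10
  exact (mul_eq_zero.1 h10.symm).resolve_left (mul_ne_zero (sub_ne_zero.2 ha1) h9)

theorem exists_ne_of_norm {f : Fin n → F} (hf : hermForm n F q f f = 1) : ∃ k, f k ≠ 0 := by
  by_contra hcon
  push Not at hcon
  rw [show f = 0 from funext hcon, herm_zero_left] at hf
  exact zero_ne_one hf

/-- `f, f'` orthonormal, `y = 1 + (a-1) h(-,f) f + (a⁻¹-1) h(-,f') f'` monomial, then `f, f'` are supported on two coordinates -/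
theorem supp_of_mono {y : SU n F q} (hy : IsMono y) {f f' : Fin n → F} (hf : hermForm n F q f f = 1)
    (hf' : hermForm n F q f' f' = 1) (hff : hermForm n F q f f' = 0) {a b : F} (hab : a * b = 1)
    (ha2 : a ^ 2 ≠ 1) (ha3 : a ^ 3 ≠ 1) (h2 : (2 : F) ≠ 0)
    (hact : ∀ x, act y x = x + ((a - 1) * hermForm n F q x f) • f + ((b - 1) * hermForm n F q x f') • f') :
    ∃ k l : Fin n, k ≠ l ∧ ∀ m, m ≠ k → m ≠ l → f m = 0 ∧ f' m = 0 := by
  have hff' : hermForm n F q f' f = 0 := herm_eq_zero_swap hF hff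
  have ha0 : a ≠ 0 := left_ne_zero_of_mul_eq_one hab
  have hyf : act y f = a • f := by
    rw [hact, hf, hff, mul_zero, zero_smul, add_zero, mul_one, sub_smul, one_smul]; abel
  have hyf' : act y f' = b • f' := by
    rw [hact, hf', hff', mul_zero, zero_smul, add_zero, mul_one, sub_smul, one_smul]; abel
  have ha1 : a ≠ 1 := fun h => ha2 (by rw [h]; ring)
  have hb1 : b ≠ 1 := fun h => ha1 (by rw [h, mul_one] at hab; exact hab)
  have hab' : a ≠ b := fun h => ha2 (by rw [pow_two]; nth_rewrite 2 [h]; exact hab)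
  obtain ⟨σ, d, hσ, hd⟩ := mono_perm hy
  by_cases hdiag : ∀ m, σ m = m
  · -- diagonal case
    obtain ⟨k, hk⟩ := exists_ne_of_norm hF hf
    obtain ⟨l, hl⟩ := exists_ne_of_norm hF hf'
    have h3 : ∀ m, m ≠ k → f m = 0 := fun m hm =>
      diag_supp hF hf hf' hff ha1 hab' hact (d := d k) (by rw [hσ, hdiag]) hk hm
    have h4 : ∀ m, m ≠ l → f' m = 0 := fun m hm =>
      diag_supp hF hf' hf hff' hb1 (Ne.symm hab') (fun x => by rw [hact]; abel) (d := d l)
        (by rw [hσ, hdiag]) hl hm
    refine ⟨k, l, fun hkl => ?_, fun m hm1 hm2 => ⟨h3 m hm1, h4 m hm2⟩⟩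
    subst hkl
    rw [herm_def, Finset.sum_eq_single k] at hff
    · exact mul_ne_zero hk (pow_ne_zero _ hl) hff
    · intro m _ hm
      rw [h3 m hm, zero_mul]
    · intro h
      exact absurd (Finset.mem_univ k) h
  · push Not at hdiag
    obtain ⟨k, hk⟩ := hdiag
    obtain ⟨l, hl⟩ : ∃ l, l = σ k := ⟨_, rfl⟩
    rw [← hl] at hk
    -- the cubic relation
    have hspan : ∀ v, act y (act y (act y v)) - (1 + (a + b)) • act y (act y v) + (1 + (a + b)) • act y v - v = 0 := by
      intro v
      have e0 : act y v - v = ((a - 1) * hermForm n F q v f) • f + ((b - 1) * hermForm n F q v f') • f' := by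
        rw [hact]; abel
      have e1 : act y (act y v) - act y v = (a * ((a - 1) * hermForm n F q v f)) • f
          + (b * ((b - 1) * hermForm n F q v f')) • f' := by
        rw [← act_sub, e0, act_add, act_smul, act_smul, hyf, hyf', smul_smul, smul_smul, mul_comm a, mul_comm b]
      have e2 : act y (act y (act y v)) - act y (act y v) = (a ^ 2 * ((a - 1) * hermForm n F q v f)) • f
          + (b ^ 2 * ((b - 1) * hermForm n F q v f')) • f' := by
        rw [← act_sub, e1, act_add, act_smul, act_smul, hyf, hyf', smul_smul, smul_smul]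
        congr 2 <;> ring
      have e3 : act y (act y (act y v)) - (1 + (a + b)) • act y (act y v) + (1 + (a + b)) • act y v - v =
          (act y (act y (act y v)) - act y (act y v)) - (a + b) • (act y (act y v) - act y v) + (act y v - v) := by
        module
      rw [e3, e2, e1, e0]
      have e4 : (a ^ 2 * ((a - 1) * hermForm n F q v f)) • f + (b ^ 2 * ((b - 1) * hermForm n F q v f')) • f'
          - (a + b) • ((a * ((a - 1) * hermForm n F q v f)) • f + (b * ((b - 1) * hermForm n F q v f')) • f')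
          + (((a - 1) * hermForm n F q v f) • f + ((b - 1) * hermForm n F q v f') • f') =
          ((1 - a * b) * ((a - 1) * hermForm n F q v f)) • f
            + ((1 - a * b) * ((b - 1) * hermForm n F q v f')) • f' := by module
      rw [e4, hab, sub_self, zero_mul, zero_mul, zero_smul, zero_smul, add_zero]
    have hk1 : act y (Pi.single k 1) = d k • Pi.single l 1 := by rw [hl]; exact hσ k
    have hk2 : act y (act y (Pi.single k 1)) = (d k * d l) • Pi.single (σ l) 1 := by
      rw [hk1, act_smul, hσ, smul_smul]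
    have hk3 : act y (act y (act y (Pi.single k 1))) = (d k * d l * d (σ l)) • Pi.single (σ (σ l)) 1 := by
      rw [hk2, act_smul, hσ, smul_smul]
    have hrel := hspan (Pi.single k 1)
    rw [hk3, hk2, hk1] at hrel
    have hll : σ l ≠ l := fun h => hk (σ.injective (by rw [h, ← hl])).symm
    have hσσ : σ (σ l) = l := by
      by_contra hne
      have h3 := congrFun hrel l
      simp only [Pi.add_apply, Pi.sub_apply, Pi.smul_apply, Pi.zero_apply, Pi.single_eq_same,
        Pi.single_eq_of_ne hk, Pi.single_eq_of_ne (Ne.symm hne), Pi.single_eq_of_ne (Ne.symm hll), smul_eq_mul] at h3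
      have h4 : (1 + (a + b)) * d k = 0 := by linear_combination h3
      have h5 := (mul_eq_zero.1 h4).resolve_right (hd k)
      apply ha3
      linear_combination (a ^ 2 - a) * h5 - (a - 1) * hab
    have hσl : σ l = k := σ.injective (by rw [hσσ, hl])
    rw [hσσ, hσl] at hrel
    have h3 := congrFun hrel l
    have h4 := congrFun hrel k
    simp only [Pi.add_apply, Pi.sub_apply, Pi.smul_apply, Pi.zero_apply, Pi.single_eq_same,
      Pi.single_eq_of_ne hk, Pi.single_eq_of_ne (Ne.symm hk), smul_eq_mul] at h3 h4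
    have h5 : d k * d l = - (1 + (a + b)) := by
      have h6 : d k * (d k * d l + (1 + (a + b))) = 0 := by linear_combination h3
      linear_combination (mul_eq_zero.1 h6).resolve_left (hd k)
    have h6 : (a + b) * (a + b + 2) = 0 := by
      linear_combination h4 + (1 + (a + b)) * h5
    have hs : a + b = 0 := by
      rcases mul_eq_zero.1 h6 with h7 | h7
      · exact h7
      · exfalso
        apply ha2
        have h8 : (a + 1) * (a + 1) = 0 := by linear_combination a * h7 - hab
        have h9 := mul_self_eq_zero.1 h8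
        linear_combination (a - 1) * h9
    have h7 : d k * d l = -1 := by rw [h5, hs]; ring
    -- `e_k, e_l` are in the span of `f, f'`
    have hin1 : ∃ s t : F, act y (Pi.single k 1) - Pi.single k 1 = s • f + t • f' :=
      ⟨_, _, by rw [hact (Pi.single k 1)]; abel⟩
    obtain ⟨s, t, hst⟩ := hin1
    have hin2 : act y (act y (Pi.single k 1)) - act y (Pi.single k 1) = (a * s) • f + (b * t) • f' := by
      rw [← act_sub, hst, act_add, act_smul, act_smul, hyf, hyf', smul_smul, smul_smul, mul_comm a, mul_comm b]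
    rw [hk2, hσl, h7] at hin2
    rw [hk1] at hst hin2
    have hek : ∃ s t : F, (Pi.single k 1 : Fin n → F) = s • f + t • f' := by
      refine ⟨(2 : F)⁻¹ * (-(s + a * s)), (2 : F)⁻¹ * (-(t + b * t)), ?_⟩
      have e1 : (2 : F) • (Pi.single k 1 : Fin n → F) = (-(s + a * s)) • f + (-(t + b * t)) • f' := by
        have e2 : (-(s + a * s)) • f + (-(t + b * t)) • f' = - ((s • f + t • f') + ((a * s) • f + (b * t) • f')) := by
          module
        rw [e2, ← hst, ← hin2]
        module
      rw [mul_smul, mul_smul, ← smul_add, ← e1, smul_smul, inv_mul_cancel₀ h2, one_smul]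
    have hel : ∃ s t : F, (Pi.single l 1 : Fin n → F) = s • f + t • f' := by
      refine ⟨(d k)⁻¹ * ((2 : F)⁻¹ * (s - a * s)), (d k)⁻¹ * ((2 : F)⁻¹ * (t - b * t)), ?_⟩
      have e1 : (2 : F) • (d k • (Pi.single l 1 : Fin n → F)) = (s - a * s) • f + (t - b * t) • f' := by
        have e2 : (s - a * s) • f + (t - b * t) • f' = ((s • f + t • f') - ((a * s) • f + (b * t) • f')) := by
          module
        rw [e2, ← hst, ← hin2]
        module
      rw [mul_smul, mul_smul, mul_smul, mul_smul, ← smul_add, ← smul_add, ← e1, smul_smul (2 : F)⁻¹,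
        inv_mul_cancel₀ h2, one_smul, smul_smul, inv_mul_cancel₀ (hd k), one_smul]
    have hind : ∀ s t : F, s • (Pi.single k 1 : Fin n → F) + t • Pi.single l 1 = 0 → s = 0 ∧ t = 0 := by
      intro s t h0
      have e1 := congrFun h0 k
      have e2 := congrFun h0 l
      simp only [Pi.add_apply, Pi.smul_apply, Pi.zero_apply, Pi.single_eq_same, Pi.single_eq_of_ne hk,
        Pi.single_eq_of_ne (Ne.symm hk), smul_eq_mul, mul_one, mul_zero, add_zero, zero_add] at e1 e2
      exact ⟨e1, e2⟩
    obtain ⟨s1, t1, hf1⟩ := span_swap hind hek hel (x := f) ⟨1, 0, by rw [one_smul, zero_smul, add_zero]⟩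
    obtain ⟨s2, t2, hf2⟩ := span_swap hind hek hel (x := f') ⟨0, 1, by rw [one_smul, zero_smul, zero_add]⟩
    refine ⟨k, l, Ne.symm hk, fun m hmk hml => ⟨?_, ?_⟩⟩
    · rw [hf1, Pi.add_apply, Pi.smul_apply, Pi.smul_apply, Pi.single_eq_of_ne hmk, Pi.single_eq_of_ne hml,
        smul_zero, smul_zero, add_zero]
    · rw [hf2, Pi.add_apply, Pi.smul_apply, Pi.smul_apply, Pi.single_eq_of_ne hmk, Pi.single_eq_of_ne hml,
        smul_zero, smul_zero, add_zero]

theorem exists_swap (h2 : (2 : F) ≠ 0) (r m : Fin n) :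
    ∃ h : SU n F q, IsMono h ∧ ∃ c : F, act h (Pi.single r 1) = c • Pi.single m 1 := by
  classical
  by_cases hrm : r = m
  · subst hrm
    refine ⟨1, fun j => ⟨j, 1, by rw [act_one, one_smul]⟩, 1, by rw [act_one, one_smul]⟩
  · obtain ⟨g, hg, hact⟩ := exists_mono hF (Equiv.swap r m) (Function.update (fun _ => (1 : F)) r (-1))
      (fun i => by
        by_cases h : i = r
        · subst h; rw [Function.update_self, neg_pow_q hF, one_pow]; ring
        · rw [Function.update_of_ne h, one_pow, mul_one]) (by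
      rw [Equiv.Perm.sign_swap hrm, Finset.prod_update_of_mem (Finset.mem_univ r)]
      simp)
    refine ⟨g, hg, -1, ?_⟩
    funext l
    rw [hact, Pi.smul_apply, smul_eq_mul]
    by_cases hl : l = m
    · subst hl
      rw [Equiv.swap_apply_right, Function.update_self, Pi.single_eq_same, Pi.single_eq_same]
    · rw [Pi.single_eq_of_ne hl, Pi.single_eq_of_ne (fun h => hl (by
        have := congrArg (Equiv.swap r m) h
        rw [Equiv.swap_apply_self, Equiv.swap_apply_left] at this
        exact this)), mul_zero, mul_zero]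

end Main

/-- the hypotheses -/
structure Hy [Fintype F] (X : Subgroup (SU n F q)) (a : F) : Prop where
  hF : Fintype.card F = q ^ 2
  mono : ∀ g : SU n F q, IsMono g → g ∈ X
  fix : ∀ y ∈ X, ∀ (k : Fin n) (c : F), act y (Pi.single k 1) = c • Pi.single k 1 → IsMono y
  ha : a * a ^ q = 1
  ha2 : a ^ 2 ≠ 1
  ha3 : a ^ 3 ≠ 1
  h2 : (2 : F) ≠ 0

namespace Hy

variable [Fintype F] {X : Subgroup (SU n F q)} {a : F} (h : Hy X a)
include h

theorem of_line {g : SU n F q} (hg : g ∈ X) {m r : Fin n} {c : F}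
    (hc : act g (Pi.single m 1) = c • Pi.single r 1) : IsMono g := by
  obtain ⟨s, hs, d, hd⟩ := exists_swap h.hF h.h2 r m
  have h1 : IsMono (s * g) := h.fix _ (X.mul_mem (h.mono s hs) hg) m (c * d) (by
    rw [act_mul, hc, act_smul, hd, smul_smul])
  have h2 := mono_mul (mono_inv hs) h1
  rwa [inv_mul_cancel_left] at h2

theorem norm_act (g : SU n F q) (i : Fin n) :
    hermForm n F q (act g (Pi.single i 1)) (act g (Pi.single i 1)) = 1 := by
  rw [herm_act, herm_single_self h.hF]

theorem orth_act (g : SU n F q) {i j : Fin n} (hij : i ≠ j) :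
    hermForm n F q (act g (Pi.single i 1)) (act g (Pi.single j 1)) = 0 := by
  rw [herm_act, herm_single_ne h.hF hij]

theorem indep_act (g : SU n F q) {i j : Fin n} (hij : i ≠ j) (s t : F)
    (h0 : s • act g (Pi.single i 1) + t • act g (Pi.single j 1) = 0) : s = 0 ∧ t = 0 := by
  have h1 := congrArg (fun z => hermForm n F q z (act g (Pi.single i 1))) h0
  have h2 := congrArg (fun z => hermForm n F q z (act g (Pi.single j 1))) h0
  simp only [herm_add_left, herm_smul_left, h.norm_act, h.orth_act g hij, h.orth_act g hij.symm,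
    herm_zero_left, mul_one, mul_zero, add_zero, zero_add] at h1 h2
  exact ⟨h1, h2⟩

theorem supp_conj (g : SU n F q) {i j : Fin n} (hij : i ≠ j) {t : SU n F q}
    (ht : ∀ x, act t x = x + ((a - 1) * x i) • Pi.single i 1 + ((a ^ q - 1) * x j) • Pi.single j 1)
    (hy : IsMono (g * t * g⁻¹)) :
    ∃ k l : Fin n, k ≠ l ∧ ∀ m, m ≠ k → m ≠ l →
      act g (Pi.single i 1) m = 0 ∧ act g (Pi.single j 1) m = 0 :=
  supp_of_mono h.hF hy (h.norm_act g i) (h.norm_act g j) (h.orth_act g hij) h.ha h.ha2 h.ha3 h.h2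
    (act_conj h.hF ht)

theorem mono_of_supp (hn : 5 ≤ n) {g : SU n F q} (hg : g ∈ X) {i j k l : Fin n} (hij : i ≠ j) (hkl : k ≠ l)
    (hs : ∀ m, m ≠ k → m ≠ l → act g (Pi.single i 1) m = 0 ∧ act g (Pi.single j 1) m = 0) : IsMono g := by
  classical
  have hspan : ∀ {i j k l : Fin n}, i ≠ j → k ≠ l →
      (∀ m, m ≠ k → m ≠ l → act g (Pi.single i 1) m = 0 ∧ act g (Pi.single j 1) m = 0) →
      ∀ x : Fin n → F, (∀ m, m ≠ k → m ≠ l → x m = 0) →
        ∃ s t : F, x = s • act g (Pi.single i 1) + t • act g (Pi.single j 1) := by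
    intro i j k l hij hkl hs x hx
    exact span_swap (h.indep_act g hij) ⟨_, _, mem_pair hkl fun m h1 h2 => (hs m h1 h2).1⟩
      ⟨_, _, mem_pair hkl fun m h1 h2 => (hs m h1 h2).2⟩ ⟨_, _, mem_pair hkl hx⟩
  -- planes
  have hpl : ∀ m m' : Fin n, m ≠ m' → m ≠ i → m ≠ j → m' ≠ i → m' ≠ j → ∃ k l : Fin n, k ≠ l ∧
      ∀ r, r ≠ k → r ≠ l → act g (Pi.single m 1) r = 0 ∧ act g (Pi.single m' 1) r = 0 := by
    intro m m' hmm hmi hmj hmi' hmj'
    obtain ⟨t, htm, ht⟩ := exists_tau h.hF h.ha hmm
    refine h.supp_conj g hmm ht (h.fix _ (X.mul_mem (X.mul_mem hg (h.mono t htm)) (X.inv_mem hg)) k 1 ?_)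
    rw [act_conj h.hF ht]
    obtain ⟨s, s', hss⟩ := hspan hij hkl hs (Pi.single k 1) (fun r hrk _ => Pi.single_eq_of_ne hrk _)
    have h1 : ∀ r, r ≠ i → r ≠ j → hermForm n F q (Pi.single k 1) (act g (Pi.single r 1)) = 0 := by
      intro r hri hrj
      rw [hss, herm_add_left, herm_smul_left, herm_smul_left, h.orth_act g hri.symm, h.orth_act g hrj.symm,
        mul_zero, mul_zero, add_zero]
    rw [h1 m hmi hmj, h1 m' hmi' hmj', mul_zero, mul_zero, zero_smul, zero_smul, add_zero, add_zero, one_smul]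
  obtain ⟨m1, m2, m3, hm1, hm2, hm3, h12, h13, h23⟩ : ∃ m1 m2 m3 : Fin n, m1 ∈ (Finset.univ \ {i, j} : Finset (Fin n)) ∧
      m2 ∈ (Finset.univ \ {i, j} : Finset (Fin n)) ∧ m3 ∈ (Finset.univ \ {i, j} : Finset (Fin n)) ∧
      m1 ≠ m2 ∧ m1 ≠ m3 ∧ m2 ≠ m3 := by
    apply Finset.two_lt_card_iff.1
    rw [Finset.card_sdiff_of_subset (Finset.subset_univ _), Finset.card_univ, Fintype.card_fin]
    have : ({i, j} : Finset (Fin n)).card ≤ 2 := Finset.card_le_two
    omega
  have hmem : ∀ m, m ∈ (Finset.univ \ {i, j} : Finset (Fin n)) → m ≠ i ∧ m ≠ j := by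
    intro m hm
    simp only [Finset.mem_sdiff, Finset.mem_univ, true_and, Finset.mem_insert, Finset.mem_singleton, not_or] at hm
    exact hm
  obtain ⟨k1, l1, hkl1, hs1⟩ := hpl m1 m2 h12 (hmem m1 hm1).1 (hmem m1 hm1).2 (hmem m2 hm2).1 (hmem m2 hm2).2
  obtain ⟨k2, l2, hkl2, hs2⟩ := hpl m1 m3 h13 (hmem m1 hm1).1 (hmem m1 hm1).2 (hmem m3 hm3).1 (hmem m3 hm3).2
  by_cases hk1 : k1 = k2 ∨ k1 = l2
  · by_cases hl1 : l1 = k2 ∨ l1 = l2
    · -- the same plane
      exfalso
      have hsub : ∀ r, r ≠ k1 → r ≠ l1 → act g (Pi.single m3 1) r = 0 := by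
        intro r hr1 hr2
        apply (hs2 r _ _).2
        · rintro rfl
          rcases hk1 with h1 | h1
          · exact hr1 h1.symm
          · rcases hl1 with h2 | h2
            · exact hr2 h2.symm
            · exact hkl1 (h1.trans h2.symm)
        · rintro rfl
          rcases hk1 with h1 | h1
          · rcases hl1 with h2 | h2
            · exact hkl1 (h1.trans h2.symm)
            · exact hr2 h2.symm
          · exact hr1 h1.symm
      obtain ⟨s, t, hst⟩ := hspan h12 hkl1 hs1 _ hsub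
      have h3 := h.norm_act g m3
      nth_rewrite 1 [hst] at h3
      rw [herm_add_left, herm_smul_left, herm_smul_left, h.orth_act g h13, h.orth_act g h23, mul_zero, mul_zero,
        add_zero] at h3
      exact zero_ne_one h3
    · push Not at hl1
      apply h.of_line hg (m := m1) (r := k1) (c := act g (Pi.single m1 1) k1)
      have h3 := mem_pair hkl1 (x := act g (Pi.single m1 1)) fun m h1 h2 => (hs1 m h1 h2).1
      rw [(hs2 l1 hl1.1 hl1.2).1, zero_smul, add_zero] at h3
      exact h3
  · push Not at hk1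
    apply h.of_line hg (m := m1) (r := l1) (c := act g (Pi.single m1 1) l1)
    have h3 := mem_pair hkl1 (x := act g (Pi.single m1 1)) fun m h1 h2 => (hs1 m h1 h2).1
    rw [(hs2 k1 hk1.1 hk1.2).1, zero_smul, zero_add] at h3
    exact h3

/-- **Claim 0** -/
theorem mono_of_conj (hn : 5 ≤ n) {g : SU n F q} (hg : g ∈ X) {i j : Fin n} (hij : i ≠ j) {t : SU n F q}
    (ht : ∀ x, act t x = x + ((a - 1) * x i) • Pi.single i 1 + ((a ^ q - 1) * x j) • Pi.single j 1)
    (hy : IsMono (g * t * g⁻¹)) : IsMono g := by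
  obtain ⟨k, l, hkl, hs⟩ := h.supp_conj g hij ht hy
  exact h.mono_of_supp hn hg hij hkl hs

/-- **centralisers** -/
theorem mono_of_comm (hn : 5 ≤ n) {u y : SU n F q} (huy : u * y = y * u) (hy : y ∈ X) {η : F} (hη : η = 1 ∨ η = -1)
    {l i j : Fin n} (hij : i ≠ j) (hl : act u (Pi.single l 1) = η • Pi.single l 1)
    (hi : act u (Pi.single i 1) = (-η) • Pi.single i 1) (hj : act u (Pi.single j 1) = (-η) • Pi.single j 1) :
    IsMono y := by
  obtain ⟨t, htm, ht⟩ := exists_tau h.hF h.ha hij
  have hη0 : η ≠ 0 := by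
    rcases hη with rfl | rfl
    · exact one_ne_zero
    · exact neg_ne_zero.2 one_ne_zero
  have hv : act u (act y⁻¹ (Pi.single l 1)) = η • act y⁻¹ (Pi.single l 1) := by
    have e1 : u * y⁻¹ = y⁻¹ * u := by
      have := congrArg (fun z => y⁻¹ * z * y⁻¹) huy
      simp only [mul_assoc, mul_inv_cancel, mul_one, inv_mul_cancel_left] at this
      exact this.symm
    rw [← act_mul, e1, act_mul, hl, act_smul]
  have hz : ∀ {m : Fin n}, act u (Pi.single m 1) = (-η) • Pi.single m 1 → act y⁻¹ (Pi.single l 1) m = 0 := by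
    intro m hm
    have h1 := act_coord h.hF hm (act y⁻¹ (Pi.single l 1))
    rw [hv, Pi.smul_apply, smul_eq_mul] at h1
    have h3 : (2 * η) * act y⁻¹ (Pi.single l 1) m = 0 := by linear_combination h1
    exact (mul_eq_zero.1 h3).resolve_left (mul_ne_zero h.h2 hη0)
  refine h.mono_of_conj hn hy hij ht (h.fix _ (X.mul_mem (X.mul_mem hy (h.mono t htm)) (X.inv_mem hy)) l 1 ?_)
  rw [act_mul, act_mul, ht, hz hi, hz hj, mul_zero, mul_zero, zero_smul, zero_smul, add_zero, add_zero,
    act_act_inv, one_smul]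

end Hy

end Cfsg.Agent.H913.Fr
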