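import Cfsg.Agent.H913.Frame6A

/-!
# Orthonormal frames in `SU_6(q)`, `q` odd: the main argument (helper913)
-/

set_option autoImplicit false
set_option linter.unusedSectionVars false

namespace Cfsg.Agent.H913.Fr

open Module Cfsg Cfsg.Agent.LieClassical.HermBasic Cfsg.Agent.LieClassical.HermSiegel
open Cfsg.Agent.H927

section Grp

variable {G : Type*} [Group G] {x y : G}

theorem conj_of_odd (hx : x * x = 1) (hy : y * y = 1) {m : ℕ} (h : (x * y) ^ (2 * m + 1) = 1) :
    (x * y) ^ m * x * ((x * y) ^ m)⁻¹ = y := by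
  have hx' : x⁻¹ = x := inv_eq_of_mul_eq_one_left hx
  have hy' : y⁻¹ = y := inv_eq_of_mul_eq_one_left hy
  have hc : x * (x * y) ^ m * x⁻¹ = ((x * y) ^ m)⁻¹ := by
    rw [← conj_pow, ← inv_pow, mul_inv_rev, hx', hy', ← mul_assoc, hx, one_mul]
  set P := (x * y) ^ m with hP
  have h1 : P * P * (x * y) = 1 := by
    rw [hP, ← pow_add, ← two_mul, ← pow_succ, h]
  have h2 : x * P = P⁻¹ * x := by rw [← hc, inv_mul_cancel_right]
  have h3 : P * x = x * P⁻¹ := by
    have : P * (x * P) * P⁻¹ = P * (P⁻¹ * x) * P⁻¹ := by rw [h2]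
    rwa [mul_assoc, mul_inv_cancel_right, mul_inv_cancel_left] at this
  have h4 : (P * P)⁻¹ = x * y := inv_eq_of_mul_eq_one_right h1
  rw [h3, mul_assoc, ← mul_inv_rev, h4, ← mul_assoc, hx, one_mul]

theorem comm_of_even (hx : x * x = 1) (hy : y * y = 1) {m : ℕ} (h : (x * y) ^ (m + m) = 1) :
    (x * y) ^ m * (x * y) ^ m = 1 ∧ x * (x * y) ^ m = (x * y) ^ m * x ∧ y * (x * y) ^ m = (x * y) ^ m * y := by
  have hx' : x⁻¹ = x := inv_eq_of_mul_eq_one_left hx
  have hy' : y⁻¹ = y := inv_eq_of_mul_eq_one_left hy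
  have hc : x * (x * y) ^ m * x⁻¹ = ((x * y) ^ m)⁻¹ := by
    rw [← conj_pow, ← inv_pow, mul_inv_rev, hx', hy', ← mul_assoc, hx, one_mul]
  have h1 : (x * y) ^ m * (x * y) ^ m = 1 := by rw [← pow_add, h]
  have h2 : ((x * y) ^ m)⁻¹ = (x * y) ^ m := inv_eq_of_mul_eq_one_left h1
  have h3 : x * (x * y) ^ m = (x * y) ^ m * x := by
    rw [h2] at hc
    nth_rewrite 2 [← hc]
    rw [inv_mul_cancel_right]
  refine ⟨h1, h3, ?_⟩
  have h4 : y = x * (x * y) := by rw [← mul_assoc, hx, one_mul]
  have h5 : (x * y) * (x * y) ^ m = (x * y) ^ m * (x * y) := (Commute.self_pow (x * y) m).eq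
  calc y * (x * y) ^ m = x * ((x * y) * (x * y) ^ m) := by rw [← mul_assoc, ← h4]
    _ = x * (x * y) ^ m * (x * y) := by rw [h5, mul_assoc]
    _ = (x * y) ^ m * (x * (x * y)) := by rw [h3, mul_assoc]
    _ = (x * y) ^ m * y := by rw [← h4]

end Grp

variable {F : Type*} [Field F] {n q : ℕ}

theorem act_ext {g h : SU n F q} (H : ∀ x, act g x = act h x) : g = h := by
  apply mat_injective
  ext i j
  rw [← act_single, ← act_single, H]

theorem trace_conj (g t : SU n F q) : (mat (g * t * g⁻¹)).trace = (mat t).trace := by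
  rw [mat_mul, mat_mul, Matrix.trace_mul_comm, ← mul_assoc, ← mat_mul, inv_mul_cancel, mat_one, one_mul]

theorem trace_act (g : SU n F q) : (mat g).trace = ∑ m, act g (Pi.single m 1) m := by
  rw [Matrix.trace]
  refine Finset.sum_congr rfl fun m _ => ?_
  rw [act_single, Matrix.diag_apply]

theorem prod_of_diag {z : SU n F q} {μ : Fin n → F} (h : ∀ m, act z (Pi.single m 1) = μ m • Pi.single m 1) :
    ∏ m, μ m = 1 := by
  have h1 : mat z = Matrix.diagonal μ := by
    ext i j
    rw [← act_single, h, Pi.smul_apply, smul_eq_mul, Matrix.diagonal_apply]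
    by_cases hij : i = j
    · subst hij
      rw [if_pos rfl, Pi.single_eq_same, mul_one]
    · rw [if_neg hij, Pi.single_eq_of_ne hij, mul_zero]
  have h2 := det_mat z
  rwa [h1, Matrix.det_diagonal] at h2

/-- two fixed points -/
theorem exists_two_fixed (σ : Equiv.Perm (Fin 6)) (hσ : ∀ m, σ (σ m) = m) {k : Fin 6} (hk : σ k = k) :
    ∃ l, l ≠ k ∧ σ l = l := by
  obtain ⟨f, hf⟩ : ∃ f : Function.End (Fin 6), f = (σ : Fin 6 → Fin 6) := ⟨_, rfl⟩
  have h1 := Equiv.Perm.card_fixedPoints_modEq (p := 2) (n := 1) (f := f) (by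
    rw [pow_one, pow_two, hf]
    funext m
    exact hσ m)
  by_contra hcon
  push Not at hcon
  have hf' : ∀ m, f m = σ m := fun m => by rw [hf]
  rw [Fintype.card_eq_nat_card, Fintype.card_eq_nat_card, Nat.card_fin] at h1
  have h2 : Nat.card (Function.fixedPoints f) = 1 := by
    rw [Nat.card_eq_one_iff_unique]
    refine ⟨⟨fun y z => Subtype.ext ?_⟩, ⟨⟨k, (hf' k).trans hk⟩⟩⟩
    have h3 : ∀ y : Function.fixedPoints f, y.1 = k := by
      intro y
      by_contra hne
      have h3 : f y.1 = y.1 := y.2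
      rw [hf'] at h3
      exact hcon y.1 hne h3
    rw [h3, h3]
  rw [h2] at h1
  exact absurd h1 (by decide)

section

variable [Fintype F] (hF : Fintype.card F = q ^ 2)
include hF

/-- the involutions of the second kind -/
theorem exists_x {c : F} (hc : c * c ^ q = 1) {i j k : Fin n} (hij : i ≠ j) (hik : i ≠ k) (hjk : j ≠ k) :
    ∃ x : SU n F q, IsMono x ∧ ∀ v, act x v =
      v + (c ^ q * v j - v i) • (Pi.single i 1 - c • Pi.single j 1) + (-2 * v k) • Pi.single k 1 := by
  classical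
  obtain ⟨d, hd⟩ : ∃ d : Fin n → F, d = Function.update (Function.update (Function.update (fun _ => (1 : F)) k (-1)) j (c ^ q)) i c :=
    ⟨_, rfl⟩
  have hdi : d i = c := by rw [hd, Function.update_self]
  have hdj : d j = c ^ q := by rw [hd, Function.update_of_ne hij.symm, Function.update_self]
  have hdk : d k = -1 := by
    rw [hd, Function.update_of_ne hik.symm, Function.update_of_ne hjk.symm, Function.update_self]
  have hdm : ∀ m, m ≠ i → m ≠ j → m ≠ k → d m = 1 := by
    intro m h1 h2 h3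
    rw [hd, Function.update_of_ne h1, Function.update_of_ne h2, Function.update_of_ne h3]
  have hprod : ∏ m, d m = -1 := by
    rw [← Finset.mul_prod_erase _ _ (Finset.mem_univ i), ← Finset.mul_prod_erase _ _ (show j ∈ Finset.univ.erase i by
      simp [hij.symm]), ← Finset.mul_prod_erase _ _ (show k ∈ (Finset.univ.erase i).erase j by
      simp [hik.symm, hjk.symm]), Finset.prod_eq_one, hdi, hdj, hdk]
    · linear_combination -hc
    · intro m hm
      simp only [Finset.mem_erase, Finset.mem_univ, and_true] at hm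
      exact hdm m hm.2.2 hm.2.1 hm.1
  obtain ⟨x, hx, hact⟩ := exists_mono hF (Equiv.swap i j) d (fun m => by
    by_cases h1 : m = i
    · rw [h1, hdi, hc]
    by_cases h2 : m = j
    · rw [h2, hdj, pow_q_pow_q hF, mul_comm, hc]
    by_cases h3 : m = k
    · rw [h3, hdk, neg_pow_q hF, one_pow]; ring
    · rw [hdm m h1 h2 h3, one_pow, mul_one]) (by
    rw [Equiv.Perm.sign_swap hij, hprod]; simp)
  refine ⟨x, hx, fun v => ?_⟩
  funext l
  rw [hact]
  simp only [Pi.add_apply, Pi.smul_apply, Pi.sub_apply, smul_eq_mul]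
  by_cases h1 : l = i
  · rw [h1, Equiv.swap_apply_left, hdj, Pi.single_eq_same, Pi.single_eq_of_ne hij, Pi.single_eq_of_ne hik]
    ring
  by_cases h2 : l = j
  · rw [h2, Equiv.swap_apply_right, hdi, Pi.single_eq_same, Pi.single_eq_of_ne hij.symm, Pi.single_eq_of_ne hjk]
    linear_combination v j * hc
  rw [Equiv.swap_apply_of_ne_of_ne h1 h2, Pi.single_eq_of_ne h1, Pi.single_eq_of_ne h2]
  by_cases h3 : l = k
  · rw [h3, hdk, Pi.single_eq_same]
    ring
  · rw [hdm l h1 h2 h3, Pi.single_eq_of_ne h3]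
    ring

end

namespace Hy

variable [Fintype F] {X : Subgroup (SU 6 F q)} {a : F} (h : Hy X a)
include h

/-- standard involutions are conjugate to monomial elements only by monomial elements -/
theorem mono_of_conj_invol {g : SU 6 F q} (hg : g ∈ X) {i j : Fin 6} (hij : i ≠ j) {t : SU 6 F q}
    (ht : ∀ x, act t x = x + (-2 * x i) • Pi.single i 1 + (-2 * x j) • Pi.single j 1)
    (hy : IsMono (g * t * g⁻¹)) : IsMono g := by
  classical
  have htt : t * t = 1 := by
    apply act_ext
    intro x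
    rw [act_mul, act_one, ht, ht]
    simp only [Pi.add_apply, Pi.smul_apply, Pi.single_eq_same, Pi.single_eq_of_ne hij, Pi.single_eq_of_ne hij.symm,
      smul_eq_mul, mul_zero, mul_one, add_zero]
    module
  obtain ⟨σ, d, hσ, hd⟩ := mono_perm hy
  obtain ⟨s, hs⟩ : ∃ s, s = g * t * g⁻¹ := ⟨_, rfl⟩
  rw [← hs] at hσ hy
  have hss : s * s = 1 := by
    rw [hs]
    calc g * t * g⁻¹ * (g * t * g⁻¹) = g * (t * t) * g⁻¹ := by group
      _ = 1 := by rw [htt, mul_one, mul_inv_cancel]
  have hσσ : ∀ m, σ (σ m) = m := by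
    intro m
    have h1 : act s (act s (Pi.single m 1)) = Pi.single m 1 := by rw [← act_mul, hss, act_one]
    rw [hσ, act_smul, hσ, smul_smul] at h1
    by_contra hne
    have h2 := congrFun h1 m
    rw [Pi.smul_apply, Pi.single_eq_same, Pi.single_eq_of_ne (Ne.symm hne), smul_zero] at h2
    exact zero_ne_one h2
  -- a fixed point
  obtain ⟨k, hk⟩ : ∃ k, σ k = k := by
    by_contra hcon
    push Not at hcon
    have h1 := trace_conj g t
    rw [← hs, trace_act, trace_act] at h1
    have h2 : ∑ m, act s (Pi.single m 1) m = 0 := by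
      apply Finset.sum_eq_zero
      intro m _
      rw [hσ, Pi.smul_apply, Pi.single_eq_of_ne (Ne.symm (hcon m)), smul_zero]
    have h3 : ∑ m, act t (Pi.single m 1) m = 2 := by
      have h4 : ∀ m, act t (Pi.single m 1) m = 1 + ((if m = i then -2 else 0) + (if m = j then -2 else 0)) := by
        intro m
        rw [ht]
        simp only [Pi.add_apply, Pi.smul_apply, smul_eq_mul, Pi.single_eq_same]
        by_cases hmi : m = i
        · subst hmi
          rw [if_pos rfl, if_neg hij, Pi.single_eq_same, Pi.single_eq_of_ne hij]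
          ring
        by_cases hmj : m = j
        · subst hmj
          rw [if_pos rfl, if_neg hmi, Pi.single_eq_same, Pi.single_eq_of_ne hmi]
          ring
        · rw [if_neg hmi, if_neg hmj, Pi.single_eq_of_ne hmi, Pi.single_eq_of_ne hmj]
          ring
      rw [Finset.sum_congr rfl (fun m _ => h4 m), Finset.sum_add_distrib, Finset.sum_add_distrib,
        Finset.sum_ite_eq' Finset.univ i (fun _ => (-2 : F)), Finset.sum_ite_eq' Finset.univ j (fun _ => (-2 : F)),
        if_pos (Finset.mem_univ _), if_pos (Finset.mem_univ _), Finset.sum_const, Finset.card_univ,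
        Fintype.card_fin]
      simp only [nsmul_eq_mul, Nat.cast_ofNat]
      ring
    rw [h2, h3] at h1
    exact h.h2 h1.symm
  obtain ⟨l, hlk, hl⟩ := exists_two_fixed σ hσσ hk
  obtain ⟨τ, hτm, hτ⟩ := exists_tau h.hF h.ha hlk.symm
  have hcom : s * τ = τ * s := by
    apply act_ext
    intro x
    have e1 := hσ k
    have e2 := hσ l
    rw [hk] at e1
    rw [hl] at e2
    rw [act_mul, act_mul, hτ, hτ, act_add, act_add, act_smul, act_smul, e1, e2, act_coord h.hF e1,
      act_coord h.hF e2, smul_smul, smul_smul]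
    congr 2
    · congr 1; ring
    · ring
  have hcom' : t * (g⁻¹ * τ * g) = (g⁻¹ * τ * g) * t := by
    rw [hs] at hcom
    calc t * (g⁻¹ * τ * g) = g⁻¹ * (g * t * g⁻¹ * τ) * g := by group
      _ = g⁻¹ * (τ * (g * t * g⁻¹)) * g := by rw [hcom]
      _ = (g⁻¹ * τ * g) * t := by group
  have hX : g⁻¹ * τ * g ∈ X := X.mul_mem (X.mul_mem (X.inv_mem hg) (h.mono τ hτm)) hg
  obtain ⟨m1, m2, hm1, hm2, h12⟩ : ∃ m1 m2 : Fin 6, m1 ∈ (Finset.univ \ {i, j} : Finset (Fin 6)) ∧
      m2 ∈ (Finset.univ \ {i, j} : Finset (Fin 6)) ∧ m1 ≠ m2 := by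
    apply Finset.one_lt_card_iff.1
    rw [Finset.card_sdiff_of_subset (Finset.subset_univ _), Finset.card_univ, Fintype.card_fin]
    have : ({i, j} : Finset (Fin 6)).card ≤ 2 := Finset.card_le_two
    omega
  simp only [Finset.mem_sdiff, Finset.mem_univ, true_and, Finset.mem_insert, Finset.mem_singleton, not_or] at hm1 hm2
  have hti : act t (Pi.single i 1) = (-1 : F) • Pi.single i 1 := by
    rw [ht, Pi.single_eq_same, Pi.single_eq_of_ne hij.symm]
    module
  have htm : ∀ m, m ≠ i → m ≠ j → act t (Pi.single m 1) = (-(-1 : F)) • Pi.single m 1 := by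
    intro m h1 h2
    rw [ht, Pi.single_eq_of_ne (Ne.symm h1), Pi.single_eq_of_ne (Ne.symm h2)]
    module
  have h1 := h.mono_of_comm (by norm_num) hcom' hX (Or.inr rfl) h12 hti (htm m1 hm1.1 hm1.2) (htm m2 hm2.1 hm2.2)
  have h2 : g⁻¹ * τ * g = g⁻¹ * τ * g⁻¹⁻¹ := by rw [inv_inv]
  rw [h2] at h1
  have h3 := mono_inv (h.mono_of_conj (by norm_num) (X.inv_mem hg) hlk.symm hτ h1)
  rwa [inv_inv] at h3

end Hy

end Cfsg.Agent.H913.Fr
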