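import Cfsg.Agent.H913.Frame6B

/-!
# Orthonormal frames in `SU_6(q)`, `q` odd: the conclusion (helper913)
-/

set_option autoImplicit false
set_option linter.unusedSectionVars false

namespace Cfsg.Agent.H913.Fr

open Module Cfsg Cfsg.Agent.LieClassical.HermBasic Cfsg.Agent.LieClassical.HermSiegel
open Cfsg.Agent.H927

variable {F : Type*} [Field F] {q : ℕ}

theorem univ_six {i j k l1 l2 l3 : Fin 6} (hij : i ≠ j) (hik : i ≠ k) (hjk : j ≠ k)
    (h1 : l1 ≠ i ∧ l1 ≠ j ∧ l1 ≠ k) (h2 : l2 ≠ i ∧ l2 ≠ j ∧ l2 ≠ k) (h3 : l3 ≠ i ∧ l3 ≠ j ∧ l3 ≠ k)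
    (h12 : l1 ≠ l2) (h13 : l1 ≠ l3) (h23 : l2 ≠ l3) :
    (Finset.univ : Finset (Fin 6)) = {i, j, k, l1, l2, l3} := by
  symm
  apply Finset.eq_univ_of_card
  rw [Fintype.card_fin]
  rw [Finset.card_insert_of_notMem, Finset.card_insert_of_notMem, Finset.card_insert_of_notMem,
    Finset.card_insert_of_notMem, Finset.card_insert_of_notMem, Finset.card_singleton]
  · simpa using h23
  · simp only [Finset.mem_insert, Finset.mem_singleton, not_or]; exact ⟨h12, h13⟩
  · simp only [Finset.mem_insert, Finset.mem_singleton, not_or]; exact ⟨h1.2.2.symm, h2.2.2.symm, h3.2.2.symm⟩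
  · simp only [Finset.mem_insert, Finset.mem_singleton, not_or]
    exact ⟨hjk, h1.2.1.symm, h2.2.1.symm, h3.2.1.symm⟩
  · simp only [Finset.mem_insert, Finset.mem_singleton, not_or]
    exact ⟨hij, hik, h1.1.symm, h2.1.symm, h3.1.symm⟩

/-- the product over six indices -/
theorem prod_six {i j k l1 l2 l3 : Fin 6} (hij : i ≠ j) (hik : i ≠ k) (hjk : j ≠ k)
    (h1 : l1 ≠ i ∧ l1 ≠ j ∧ l1 ≠ k) (h2 : l2 ≠ i ∧ l2 ≠ j ∧ l2 ≠ k) (h3 : l3 ≠ i ∧ l3 ≠ j ∧ l3 ≠ k)
    (h12 : l1 ≠ l2) (h13 : l1 ≠ l3) (h23 : l2 ≠ l3) (f : Fin 6 → F) :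
    ∏ m, f m = f i * f j * f k * f l1 * f l2 * f l3 := by
  rw [univ_six hij hik hjk h1 h2 h3 h12 h13 h23, Finset.prod_insert, Finset.prod_insert, Finset.prod_insert,
    Finset.prod_insert, Finset.prod_insert, Finset.prod_singleton]
  · ring
  · simpa using h23
  · simp only [Finset.mem_insert, Finset.mem_singleton, not_or]; exact ⟨h12, h13⟩
  · simp only [Finset.mem_insert, Finset.mem_singleton, not_or]; exact ⟨h1.2.2.symm, h2.2.2.symm, h3.2.2.symm⟩
  · simp only [Finset.mem_insert, Finset.mem_singleton, not_or]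
    exact ⟨hjk, h1.2.1.symm, h2.2.1.symm, h3.2.1.symm⟩
  · simp only [Finset.mem_insert, Finset.mem_singleton, not_or]
    exact ⟨hij, hik, h1.1.symm, h2.1.symm, h3.1.symm⟩

theorem mem_six {i j k l1 l2 l3 : Fin 6} (hij : i ≠ j) (hik : i ≠ k) (hjk : j ≠ k)
    (h1 : l1 ≠ i ∧ l1 ≠ j ∧ l1 ≠ k) (h2 : l2 ≠ i ∧ l2 ≠ j ∧ l2 ≠ k) (h3 : l3 ≠ i ∧ l3 ≠ j ∧ l3 ≠ k)
    (h12 : l1 ≠ l2) (h13 : l1 ≠ l3) (h23 : l2 ≠ l3) (m : Fin 6) :
    m = i ∨ m = j ∨ m = k ∨ m = l1 ∨ m = l2 ∨ m = l3 := by
  have := Finset.mem_univ m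
  rw [univ_six hij hik hjk h1 h2 h3 h12 h13 h23] at this
  simpa using this

variable [Fintype F]

/-- the configuration: `y` is conjugate to a standard involution, not monomial; `x` an involution of the second kind;
`u` a monomial involution commuting with `x` and `y`. -/
structure Cf (X : Subgroup (SU 6 F q)) (a c : F) (i j k : Fin 6) (x y u : SU 6 F q) (f f' : Fin 6 → F) : Prop
    extends Hy X a where
  hc : c * c ^ q = 1
  hij : i ≠ j
  hik : i ≠ k
  hjk : j ≠ k
  hx : ∀ v, act x v =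
      v + (c ^ q * v j - v i) • (Pi.single i 1 - c • Pi.single j 1) + (-2 * v k) • Pi.single k 1
  hy : ∀ v, act y v = v + (-2 * hermForm 6 F q v f) • f + (-2 * hermForm 6 F q v f') • f'
  hf : hermForm 6 F q f f = 1
  hf' : hermForm 6 F q f' f' = 1
  hff : hermForm 6 F q f f' = 0
  hyX : y ∈ X
  hyn : ¬ IsMono y
  hu : IsMono u
  huX : u ∈ X
  huu : u * u = 1
  hux : u * x = x * u
  huy : u * y = y * u
  hu1 : u ≠ 1
  hW : ∀ v, ∃ α β γ δ : F, act u v - v = α • (Pi.single i 1 - c • Pi.single j 1) + β • Pi.single k 1 + γ • f + δ • f'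

namespace Cf

variable {X : Subgroup (SU 6 F q)} {a c : F} {i j k : Fin 6} {x y u : SU 6 F q} {f f' : Fin 6 → F}
  (h : Cf X a c i j k x y u f f')
include h

theorem hff' : hermForm 6 F q f' f = 0 := herm_eq_zero_swap h.hF h.hff

theorem mem_A_iff (v : Fin 6 → F) : act y v = -v ↔ ∃ γ δ : F, v = γ • f + δ • f' := by
  constructor
  · intro hv
    refine ⟨hermForm 6 F q v f, hermForm 6 F q v f', ?_⟩
    rw [h.hy] at hv
    have h1 : (2 : F) • (v - (hermForm 6 F q v f • f + hermForm 6 F q v f' • f')) = 0 := by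
      have : (2 : F) • (v - (hermForm 6 F q v f • f + hermForm 6 F q v f' • f')) =
        (v + (-2 * hermForm 6 F q v f) • f + (-2 * hermForm 6 F q v f') • f') - (-v) := by module
      rw [this, hv, sub_self]
    exact sub_eq_zero.1 ((smul_eq_zero.1 h1).resolve_left h.h2)
  · rintro ⟨γ, δ, rfl⟩
    rw [h.hy]
    simp only [herm_add_left, herm_smul_left, h.hf, h.hf', h.hff, h.hff']
    module

theorem not_mem_A (m : Fin 6) : act y (Pi.single m 1) ≠ - Pi.single m 1 := by
  intro h0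
  exact h.hyn (h.fix y h.hyX m (-1) (by rw [h0, neg_one_smul]))

theorem xi : act x (Pi.single i 1) = c • Pi.single j 1 := by
  rw [h.hx, Pi.single_eq_same, Pi.single_eq_of_ne h.hij.symm, Pi.single_eq_of_ne h.hik.symm]
  module

theorem xj : act x (Pi.single j 1) = c ^ q • Pi.single i 1 := by
  rw [h.hx, Pi.single_eq_same, Pi.single_eq_of_ne h.hij, Pi.single_eq_of_ne h.hjk.symm]
  have : (Pi.single j 1 : Fin 6 → F) + (c ^ q * 1 - 0) • (Pi.single i 1 - c • Pi.single j 1) + (-2 * 0 : F) • Pi.single k 1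
    = c ^ q • Pi.single i 1 + (1 - c * c ^ q) • Pi.single j 1 := by module
  rw [this, h.hc, sub_self, zero_smul, add_zero]

theorem xk : act x (Pi.single k 1) = (-1 : F) • Pi.single k 1 := by
  rw [h.hx, Pi.single_eq_same, Pi.single_eq_of_ne h.hik, Pi.single_eq_of_ne h.hjk]
  module

theorem xm {m : Fin 6} (h1 : m ≠ i) (h2 : m ≠ j) (h3 : m ≠ k) : act x (Pi.single m 1) = Pi.single m 1 := by
  rw [h.hx, Pi.single_eq_of_ne (Ne.symm h1), Pi.single_eq_of_ne (Ne.symm h2), Pi.single_eq_of_ne (Ne.symm h3)]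
  module

theorem not_neg : ¬ ∀ v, act u v = -v := by
  intro h0
  have h1 : (⊤ : Submodule F (Fin 6 → F)) ≤ Submodule.span F (Set.range
      (![Pi.single i 1 - c • Pi.single j 1, Pi.single k 1, f, f'] : Fin 4 → (Fin 6 → F))) := by
    intro v _
    obtain ⟨α, β, γ, δ, h2⟩ := h.hW ((-(2 : F)⁻¹) • v)
    rw [h0] at h2
    have h3 : v = -((-(2 : F)⁻¹) • v) - (-(2 : F)⁻¹) • v := by
      have : -((-(2 : F)⁻¹) • v) - (-(2 : F)⁻¹) • v = ((2 : F)⁻¹ * 2) • v := by
        rw [mul_two, add_smul, neg_smul]; abel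
      rw [this, inv_mul_cancel₀ h.h2, one_smul]
    rw [h3, h2]
    refine Submodule.add_mem _ (Submodule.add_mem _ (Submodule.add_mem _ ?_ ?_) ?_) ?_
    · exact Submodule.smul_mem _ _ (Submodule.subset_span ⟨0, rfl⟩)
    · exact Submodule.smul_mem _ _ (Submodule.subset_span ⟨1, rfl⟩)
    · exact Submodule.smul_mem _ _ (Submodule.subset_span ⟨2, rfl⟩)
    · exact Submodule.smul_mem _ _ (Submodule.subset_span ⟨3, rfl⟩)
  have h2 := Submodule.finrank_mono h1
  have h3 := finrank_range_le_card (R := F)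
    (![Pi.single i 1 - c • Pi.single j 1, Pi.single k 1, f, f'] : Fin 4 → (Fin 6 → F))
  rw [finrank_top, Module.finrank_fin_fun] at h2
  rw [Set.finrank, Fintype.card_fin] at h3
  omega

theorem of_neg {v : Fin 6 → F} (hv : act u v = -v) : ∃ α β γ δ : F,
    v = α • (Pi.single i 1 - c • Pi.single j 1) + β • Pi.single k 1 + γ • f + δ • f' := by
  obtain ⟨α, β, γ, δ, h1⟩ := h.hW v
  rw [hv] at h1
  refine ⟨-(2 : F)⁻¹ * α, -(2 : F)⁻¹ * β, -(2 : F)⁻¹ * γ, -(2 : F)⁻¹ * δ, ?_⟩
  have h2 : (-(2 : F)⁻¹ * α) • (Pi.single i 1 - c • Pi.single j 1) + (-(2 : F)⁻¹ * β) • (Pi.single k 1 : Fin 6 → F) +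
      (-(2 : F)⁻¹ * γ) • f + (-(2 : F)⁻¹ * δ) • f' = (-(2 : F)⁻¹) • (α • (Pi.single i 1 - c • Pi.single j 1) +
        β • Pi.single k 1 + γ • f + δ • f') := by module
  rw [h2, ← h1]
  have h3 : (-(2 : F)⁻¹) • (-v - v) = ((2 : F)⁻¹ * 2) • v := by module
  rw [h3, inv_mul_cancel₀ h.h2, one_smul]

/-- **the last step** -/
theorem last {k' m n : Fin 6} (hk' : k' ≠ i ∧ k' ≠ j ∧ k' ≠ k) (hm : m ≠ i ∧ m ≠ j ∧ m ≠ k)
    (hn : n ≠ i ∧ n ≠ j ∧ n ≠ k) (hkm : k' ≠ m) (hkn : k' ≠ n) (hmn : m ≠ n) {d : Fin 6 → F}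
    (hdk : d k = 1 ∨ d k = -1) (hdk' : d k' = d k) (hdm : d m * d n = 1) (hdi : d i * d j = 1)
    (hcd : c * d j = d i * c ^ q) (ui : act u (Pi.single i 1) = d i • Pi.single j 1)
    (uj : act u (Pi.single j 1) = d j • Pi.single i 1) (uk : act u (Pi.single k 1) = d k • Pi.single k 1)
    (uk' : act u (Pi.single k' 1) = d k' • Pi.single k' 1) (um : act u (Pi.single m 1) = d m • Pi.single n 1)
    (un : act u (Pi.single n 1) = d n • Pi.single m 1) :
    (∀ v, act y v = -v → v j = -c * v i) ∨ ∃ v, v ≠ 0 ∧ act y v = -v ∧ v k = 0 ∧ v j = -c * v i := by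
  have hw : act u (Pi.single m 1 - d m • Pi.single n 1) = -(Pi.single m 1 - d m • Pi.single n 1) := by
    rw [act_sub, act_smul, um, un, smul_smul, hdm, one_smul]; abel
  obtain ⟨α2, β2, γ2, δ2, h2⟩ := h.of_neg hw
  obtain ⟨a2, ha2⟩ : ∃ a2 : Fin 6 → F, a2 = (Pi.single m 1 - d m • Pi.single n 1) -
      α2 • (Pi.single i 1 - c • Pi.single j 1) - β2 • Pi.single k 1 := ⟨_, rfl⟩
  have ha2A : a2 = γ2 • f + δ2 • f' := by rw [ha2, h2]; abel
  have a2m : a2 m = 1 := by
    rw [ha2]
    simp only [Pi.sub_apply, Pi.smul_apply, Pi.single_eq_same, Pi.single_eq_of_ne hmn, Pi.single_eq_of_ne hm.1,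
      Pi.single_eq_of_ne hm.2.1, Pi.single_eq_of_ne hm.2.2, smul_eq_mul]
    ring
  have a2k' : a2 k' = 0 := by
    rw [ha2]
    simp only [Pi.sub_apply, Pi.smul_apply, Pi.single_eq_of_ne hkm, Pi.single_eq_of_ne hkn,
      Pi.single_eq_of_ne hk'.1, Pi.single_eq_of_ne hk'.2.1, Pi.single_eq_of_ne hk'.2.2, smul_eq_mul]
    ring
  have a2i : a2 i = -α2 := by
    rw [ha2]
    simp only [Pi.sub_apply, Pi.smul_apply, Pi.single_eq_same, Pi.single_eq_of_ne hm.1.symm,
      Pi.single_eq_of_ne hn.1.symm, Pi.single_eq_of_ne h.hij, Pi.single_eq_of_ne h.hik, smul_eq_mul]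
    ring
  have a2j : a2 j = c * α2 := by
    rw [ha2]
    simp only [Pi.sub_apply, Pi.smul_apply, Pi.single_eq_same, Pi.single_eq_of_ne hm.2.1.symm,
      Pi.single_eq_of_ne hn.2.1.symm, Pi.single_eq_of_ne h.hij.symm, Pi.single_eq_of_ne h.hjk, smul_eq_mul]
    ring
  have a2k : a2 k = -β2 := by
    rw [ha2]
    simp only [Pi.sub_apply, Pi.smul_apply, Pi.single_eq_same, Pi.single_eq_of_ne hm.2.2.symm,
      Pi.single_eq_of_ne hn.2.2.symm, Pi.single_eq_of_ne h.hik.symm, Pi.single_eq_of_ne h.hjk.symm, smul_eq_mul]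
    ring
  have hA2 : act y a2 = -a2 := (h.mem_A_iff _).2 ⟨_, _, ha2A⟩
  rcases hdk with hdk | hdk
  · -- `ε = 1`
    right
    have hU2 : act y (act u a2) = -act u a2 := by
      rw [← act_mul, ← h.huy, act_mul, hA2, act_neg]
    have hUa : act u a2 = -(Pi.single m 1 - d m • Pi.single n 1) - α2 • (d i • Pi.single j 1 - (c * d j) • Pi.single i 1)
        - β2 • Pi.single k 1 := by
      rw [ha2, act_sub, act_sub, hw, act_smul, act_smul, act_sub, act_smul, ui, uj, uk, hdk, one_smul, smul_smul]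
    have hsq : (d i - c) * (d i + c) = 0 := by
      linear_combination -d i ^ 2 * h.hc - (c * d i) * hcd + c ^ 2 * hdi
    rcases mul_eq_zero.1 hsq with h3 | h3
    · have hdic : d i = c := by linear_combination h3
      have hdj : c * d j = 1 := by rw [← hdic]; exact hdi
      have hβ : β2 = 0 := by
        by_contra hβ
        apply h.not_mem_A k
        have h4 : a2 + act u a2 = (-2 * β2) • Pi.single k 1 := by
          rw [hUa, ha2, hdic, hdj]; module
        have h5 : act y (a2 + act u a2) = -(a2 + act u a2) := by rw [act_add, hA2, hU2]; abel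
        rw [h4, act_smul, ← smul_neg] at h5
        exact smul_right_injective _ (mul_ne_zero (neg_ne_zero.2 h.h2) hβ) h5
      refine ⟨a2, ?_, hA2, by rw [a2k, hβ, neg_zero], by rw [a2i, a2j]; ring⟩
      intro h0
      rw [h0, Pi.zero_apply] at a2m
      exact zero_ne_one a2m
    · have hdic : d i = -c := by linear_combination h3
      have hdj : c * d j = -1 := by
        have := hdi
        rw [hdic] at this
        linear_combination -this
      have h4 : a2 - act u a2 = (2 : F) • (Pi.single m 1 - d m • Pi.single n 1) := by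
        rw [hUa, ha2, hdic, hdj]; module
      have h5 : act y (a2 - act u a2) = -(a2 - act u a2) := by rw [act_sub, hA2, hU2]; abel
      rw [h4, act_smul, ← smul_neg] at h5
      have h6 := smul_right_injective _ h.h2 h5
      refine ⟨_, ?_, h6, ?_, ?_⟩
      · intro h0
        have h7 := congrFun h0 m
        simp only [Pi.sub_apply, Pi.smul_apply, Pi.single_eq_same, Pi.single_eq_of_ne hmn, smul_zero, sub_zero,
          Pi.zero_apply] at h7
        exact one_ne_zero h7
      · simp only [Pi.sub_apply, Pi.smul_apply, Pi.single_eq_of_ne hm.2.2.symm, Pi.single_eq_of_ne hn.2.2.symm,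
          smul_zero, sub_zero]
      · simp only [Pi.sub_apply, Pi.smul_apply, Pi.single_eq_of_ne hm.2.1.symm, Pi.single_eq_of_ne hn.2.1.symm,
          Pi.single_eq_of_ne hm.1.symm, Pi.single_eq_of_ne hn.1.symm, smul_zero, sub_zero, mul_zero]
  · -- `ε = -1`
    left
    have hw1 : act u (Pi.single k' 1) = -(Pi.single k' 1) := by rw [uk', hdk', hdk, neg_one_smul]
    obtain ⟨α1, β1, γ1, δ1, h1⟩ := h.of_neg hw1
    obtain ⟨a1, ha1⟩ : ∃ a1 : Fin 6 → F, a1 = Pi.single k' 1 -
        α1 • (Pi.single i 1 - c • Pi.single j 1) - β1 • Pi.single k 1 := ⟨_, rfl⟩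
    have ha1A : a1 = γ1 • f + δ1 • f' := by rw [ha1, h1]; abel
    have a1m : a1 m = 0 := by
      rw [ha1]
      simp only [Pi.sub_apply, Pi.smul_apply, Pi.single_eq_of_ne hkm.symm, Pi.single_eq_of_ne hm.1,
        Pi.single_eq_of_ne hm.2.1, Pi.single_eq_of_ne hm.2.2, smul_eq_mul]
      ring
    have a1k' : a1 k' = 1 := by
      rw [ha1]
      simp only [Pi.sub_apply, Pi.smul_apply, Pi.single_eq_same,
        Pi.single_eq_of_ne hk'.1, Pi.single_eq_of_ne hk'.2.1, Pi.single_eq_of_ne hk'.2.2, smul_eq_mul]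
      ring
    have a1i : a1 i = -α1 := by
      rw [ha1]
      simp only [Pi.sub_apply, Pi.smul_apply, Pi.single_eq_same, Pi.single_eq_of_ne hk'.1.symm,
        Pi.single_eq_of_ne h.hij, Pi.single_eq_of_ne h.hik, smul_eq_mul]
      ring
    have a1j : a1 j = c * α1 := by
      rw [ha1]
      simp only [Pi.sub_apply, Pi.smul_apply, Pi.single_eq_same, Pi.single_eq_of_ne hk'.2.1.symm,
        Pi.single_eq_of_ne h.hij.symm, Pi.single_eq_of_ne h.hjk, smul_eq_mul]
      ring
    intro v hv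
    obtain ⟨γ, δ, hvA⟩ := (h.mem_A_iff v).1 hv
    obtain ⟨s, t, hst⟩ := span_swap (e1 := a1) (e2 := a2) (f1 := f) (f2 := f') (fun s t h0 => by
      have e1 := congrFun h0 k'
      have e2 := congrFun h0 m
      simp only [Pi.add_apply, Pi.smul_apply, Pi.zero_apply, a1k', a2k', a1m, a2m, smul_eq_mul, mul_one, mul_zero,
        add_zero, zero_add] at e1 e2
      exact ⟨e1, e2⟩) ⟨_, _, ha1A⟩ ⟨_, _, ha2A⟩ (x := v) ⟨_, _, hvA⟩
    rw [hst]
    simp only [Pi.add_apply, Pi.smul_apply, smul_eq_mul, a1i, a1j, a2i, a2j]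
    ring

/-- **the main step** -/
theorem main : (∀ v, act y v = -v → v j = -c * v i) ∨
    ∃ v, v ≠ 0 ∧ act y v = -v ∧ v k = 0 ∧ v j = -c * v i := by
  obtain ⟨σ, d, hσ, hd⟩ := mono_perm h.hu
  have hc0 : c ≠ 0 := left_ne_zero_of_mul_eq_one h.hc
  have hcq0 : c ^ q ≠ 0 := right_ne_zero_of_mul_eq_one h.hc
  -- `σ` is an involution
  have hinv : ∀ m, act u (act u (Pi.single m 1)) = Pi.single m 1 := by
    intro m; rw [← act_mul, h.huu, act_one]
  have hσσ : ∀ m, σ (σ m) = m := by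
    intro m
    have h1 := hinv m
    rw [hσ, act_smul, hσ, smul_smul] at h1
    by_contra hne
    have h2 := congrFun h1 m
    rw [Pi.smul_apply, Pi.single_eq_same, Pi.single_eq_of_ne (Ne.symm hne), smul_zero] at h2
    exact zero_ne_one h2
  have hdd : ∀ m, d m * d (σ m) = 1 := by
    intro m
    have h1 := hinv m
    rw [hσ, act_smul, hσ, smul_smul, hσσ] at h1
    have h2 := congrFun h1 m
    rw [Pi.smul_apply, Pi.single_eq_same, smul_eq_mul, mul_one] at h2
    exact h2
  have hsgn : ∀ m, σ m = m → d m = 1 ∨ d m = -1 := by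
    intro m hm
    have h1 := hdd m
    rw [hm] at h1
    exact mul_self_eq_one_iff.1 h1
  -- `σ k = k`
  have hσk : σ k = k := by
    have h1 : act x (act u (Pi.single k 1)) = act u (act x (Pi.single k 1)) := by
      rw [← act_mul, ← act_mul, h.hux]
    rw [h.xk, act_smul, hσ, act_smul, smul_smul, mul_comm, ← smul_smul] at h1
    have h2 : act x (Pi.single (σ k) 1) = (-1 : F) • Pi.single (σ k) 1 :=
      smul_right_injective _ (hd k) h1
    by_contra hne
    have h3 := congrFun h2 (σ k)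
    rw [Pi.smul_apply, Pi.single_eq_same] at h3
    by_cases h4 : σ k = i
    · rw [h4, h.xi, Pi.smul_apply, Pi.single_eq_of_ne h.hij, smul_zero, smul_eq_mul, mul_one] at h3
      exact one_ne_zero (neg_eq_zero.1 h3.symm)
    by_cases h5 : σ k = j
    · rw [h5, h.xj, Pi.smul_apply, Pi.single_eq_of_ne h.hij.symm, smul_zero, smul_eq_mul, mul_one] at h3
      exact one_ne_zero (neg_eq_zero.1 h3.symm)
    · rw [h.xm h4 h5 hne, Pi.single_eq_same, smul_eq_mul, mul_one] at h3
      apply h.h2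
      linear_combination h3
  -- `σ` on `{i, j}`
  have hxe : c • d j • (Pi.single (σ j) 1 : Fin 6 → F) = d i • act x (Pi.single (σ i) 1) := by
    rw [← hσ, ← act_smul, ← h.xi, ← act_mul, h.hux, act_mul, hσ, act_smul]
  have hσij : (σ i = i ∧ σ j = j) ∨ (σ i = j ∧ σ j = i ∧ c * d j = d i * c ^ q) := by
    by_cases h1 : σ i = i
    · refine Or.inl ⟨h1, ?_⟩
      by_contra h2
      have h3 := congrFun hxe (σ j)
      rw [h1, h.xi] at h3
      simp only [Pi.smul_apply, Pi.single_eq_same, smul_eq_mul, mul_one, Pi.single_eq_of_ne h2, mul_zero] at h3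
      exact (mul_ne_zero hc0 (hd j)) h3
    by_cases h2 : σ i = j
    · refine Or.inr ⟨h2, by rw [← h2, hσσ], ?_⟩
      have h4 : σ j = i := by rw [← h2, hσσ]
      have h3 := congrFun hxe i
      rw [h2, h.xj, h4] at h3
      simp only [Pi.smul_apply, Pi.single_eq_same, smul_eq_mul, mul_one] at h3
      exact h3
    · exfalso
      have h5 : σ i ≠ k := fun h0 => h.hik (σ.injective (by rw [h0, hσk]))
      rw [h.xm h1 h2 h5] at hxe
      have h6 : σ i ≠ σ j := fun h0 => h.hij (σ.injective h0)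
      have h3 := congrFun hxe (σ i)
      simp only [Pi.smul_apply, Pi.single_eq_same, smul_eq_mul, mul_one, Pi.single_eq_of_ne h6, mul_zero] at h3
      exact hd i h3.symm
  -- the other three indices
  obtain ⟨l1, l2, l3, hl1, hl2, hl3, h12, h13, h23⟩ : ∃ l1 l2 l3 : Fin 6, l1 ∈ (Finset.univ \ {i, j, k} : Finset (Fin 6)) ∧
      l2 ∈ (Finset.univ \ {i, j, k} : Finset (Fin 6)) ∧ l3 ∈ (Finset.univ \ {i, j, k} : Finset (Fin 6)) ∧
      l1 ≠ l2 ∧ l1 ≠ l3 ∧ l2 ≠ l3 := by
    apply Finset.two_lt_card_iff.1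
    rw [Finset.card_sdiff_of_subset (Finset.subset_univ _), Finset.card_univ, Fintype.card_fin]
    have : ({i, j, k} : Finset (Fin 6)).card ≤ 3 := Finset.card_le_three
    omega
  simp only [Finset.mem_sdiff, Finset.mem_univ, true_and, Finset.mem_insert, Finset.mem_singleton, not_or] at hl1 hl2 hl3
  -- signs
  have pat : ∀ {l m1 m2 : Fin 6}, σ l = l → σ m1 = m1 → σ m2 = m2 → m1 ≠ m2 → d m1 = -d l → d m2 = -d l → False := by
    intro l m1 m2 h1 h2 h3 h4 h5 h6
    apply h.hyn
    refine h.mono_of_comm (by norm_num) h.huy h.hyX (hsgn l h1) (l := l) h4 ?_ ?_ ?_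
    · rw [hσ, h1]
    · rw [hσ, h2, h5]
    · rw [hσ, h3, h6]
  have eq3 : ∀ {p p' r : Fin 6}, σ p = p → σ p' = p' → σ r = r → p ≠ p' → r ≠ p → r ≠ p' → d p = d p' := by
    intro p p' r h1 h2 h3 h4 h5 h6
    rcases hsgn p h1 with e1 | e1 <;> rcases hsgn p' h2 with e2 | e2 <;> rcases hsgn r h3 with e3 | e3
    · rw [e1, e2]
    · rw [e1, e2]
    · exact (pat h2 h3 h1 h5 (by rw [e3, e2, neg_neg]) (by rw [e1, e2, neg_neg])).elim
    · exact (pat h1 h3 h2 h6 (by rw [e3, e1]) (by rw [e2, e1])).elim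
    · exact (pat h1 h3 h2 h6 (by rw [e3, e1, neg_neg]) (by rw [e2, e1, neg_neg])).elim
    · exact (pat h2 h3 h1 h5 (by rw [e3, e2]) (by rw [e1, e2])).elim
    · rw [e1, e2]
    · rw [e1, e2]
  have hε4 : ∀ ε : F, (ε = 1 ∨ ε = -1) → ε * ε = 1 := by
    rintro ε (rfl | rfl) <;> ring
  -- all three fixed
  have hA : σ l1 = l1 → σ l2 = l2 → σ l3 = l3 → False := by
    intro s1 s2 s3
    have e1 : d l1 = d k := eq3 s1 hσk s2 hl1.2.2 h12.symm hl2.2.2
    have e2 : d l2 = d k := eq3 s2 hσk s1 hl2.2.2 h12 hl1.2.2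
    have e3 : d l3 = d k := eq3 s3 hσk s1 hl3.2.2 h13 hl1.2.2
    have hε := hε4 _ (hsgn k hσk)
    rcases hσij with ⟨si, sj⟩ | ⟨si, sj, -⟩
    · have e4 : d i = d k := eq3 si hσk s1 h.hik hl1.1 hl1.2.2
      have e5 : d j = d k := eq3 sj hσk s1 h.hjk hl1.2.1 hl1.2.2
      have hall : ∀ v, act u v = d k • v := by
        intro v
        funext m
        rw [Pi.smul_apply, smul_eq_mul]
        rcases mem_six h.hij h.hik h.hjk hl1 hl2 hl3 h12 h13 h23 m with rfl | rfl | rfl | rfl | rfl | rfl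
        · have := act_coord h.hF (hσ m) v
          rwa [si, e4] at this
        · have := act_coord h.hF (hσ m) v
          rwa [sj, e5] at this
        · have := act_coord h.hF (hσ m) v
          rwa [hσk] at this
        · have := act_coord h.hF (hσ m) v
          rwa [s1, e1] at this
        · have := act_coord h.hF (hσ m) v
          rwa [s2, e2] at this
        · have := act_coord h.hF (hσ m) v
          rwa [s3, e3] at this
      rcases hsgn k hσk with e | e
      · apply h.hu1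
        apply act_ext
        intro v
        rw [hall, e, one_smul, act_one]
      · apply h.not_neg
        intro v
        rw [hall, e, neg_one_smul]
    · -- `x u` is diagonal
      obtain ⟨μ, hμ⟩ : ∃ μ : Fin 6 → F, μ = fun m => if m = i then c ^ q * d i else if m = j then c * d j else
        if m = k then -d k else d m := ⟨_, rfl⟩
      have hdiag : ∀ m, act (x * u) (Pi.single m 1) = μ m • Pi.single m 1 := by
        intro m
        rw [act_mul, hσ, act_smul, hμ]
        rcases mem_six h.hij h.hik h.hjk hl1 hl2 hl3 h12 h13 h23 m with rfl | rfl | rfl | rfl | rfl | rfl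
        · simp only [if_true]
          rw [si, h.xj, smul_smul, mul_comm]
        · simp only [if_true, if_neg h.hij.symm]
          rw [sj, h.xi, smul_smul, mul_comm]
        · simp only [if_true, if_neg h.hik.symm, if_neg h.hjk.symm]
          rw [hσk, h.xk, smul_smul, mul_neg_one]
        · simp only [if_neg hl1.1, if_neg hl1.2.1, if_neg hl1.2.2]
          rw [s1, h.xm hl1.1 hl1.2.1 hl1.2.2]
        · simp only [if_neg hl2.1, if_neg hl2.2.1, if_neg hl2.2.2]
          rw [s2, h.xm hl2.1 hl2.2.1 hl2.2.2]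
        · simp only [if_neg hl3.1, if_neg hl3.2.1, if_neg hl3.2.2]
          rw [s3, h.xm hl3.1 hl3.2.1 hl3.2.2]
      have hprod := prod_of_diag hdiag
      rw [prod_six h.hij h.hik h.hjk hl1 hl2 hl3 h12 h13 h23, hμ] at hprod
      simp only [if_true, if_neg h.hij.symm, if_neg h.hik.symm, if_neg h.hjk.symm, if_neg hl1.1, if_neg hl1.2.1,
        if_neg hl1.2.2, if_neg hl2.1, if_neg hl2.2.1, if_neg hl2.2.2, if_neg hl3.1, if_neg hl3.2.1,
        if_neg hl3.2.2] at hprod
      rw [e1, e2, e3] at hprod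
      have e6 := hdd i
      rw [si] at e6
      apply h.h2
      have e7 : c ^ q * d i * (c * d j) = 1 := by linear_combination (c * c ^ q) * e6 + h.hc
      rw [e7] at hprod
      linear_combination -hprod - (d k * d k + 1) * hε
  -- one fixed, two interchanged
  have hB : ∀ {k' m n : Fin 6}, (k' ≠ i ∧ k' ≠ j ∧ k' ≠ k) → (m ≠ i ∧ m ≠ j ∧ m ≠ k) →
      (n ≠ i ∧ n ≠ j ∧ n ≠ k) → k' ≠ m → k' ≠ n → m ≠ n → σ k' = k' → σ m = n →
      (∀ v, act y v = -v → v j = -c * v i) ∨ ∃ v, v ≠ 0 ∧ act y v = -v ∧ v k = 0 ∧ v j = -c * v i := by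
    intro k' m n hk' hm hn hkm hkn hmn sk' smn
    have snm : σ n = m := by rw [← smn, hσσ]
    have hdm : d m * d n = 1 := by rw [← smn]; exact hdd m
    have hε := hε4 _ (hsgn k hσk)
    obtain ⟨z, -, hz⟩ := exists_x (n := 6) h.hF (c := (1 : F)) (by rw [one_pow, mul_one]) hmn hm.2.2 hn.2.2
    have zm : act z (Pi.single m 1) = Pi.single n 1 := by
      rw [hz, Pi.single_eq_same, Pi.single_eq_of_ne hmn.symm, Pi.single_eq_of_ne hm.2.2.symm]
      module
    have zn : act z (Pi.single n 1) = Pi.single m 1 := by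
      rw [hz, Pi.single_eq_same, Pi.single_eq_of_ne hmn, Pi.single_eq_of_ne hn.2.2.symm, one_pow]
      module
    have zk : act z (Pi.single k 1) = (-1 : F) • Pi.single k 1 := by
      rw [hz, Pi.single_eq_same, Pi.single_eq_of_ne hm.2.2, Pi.single_eq_of_ne hn.2.2]
      module
    have zr : ∀ {r : Fin 6}, r ≠ m → r ≠ n → r ≠ k → act z (Pi.single r 1) = Pi.single r 1 := by
      intro r h1 h2 h3
      rw [hz, Pi.single_eq_of_ne (Ne.symm h1), Pi.single_eq_of_ne (Ne.symm h2), Pi.single_eq_of_ne (Ne.symm h3)]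
      module
    rcases hσij with ⟨si, sj⟩ | ⟨si, sj, hcd⟩
    · exfalso
      have e1 : d k' = d k := eq3 sk' hσk si hk'.2.2 hk'.1.symm h.hik
      have e4 : d i = d k := eq3 si hσk sk' h.hik hk'.1 hk'.2.2
      have e5 : d j = d k := eq3 sj hσk sk' h.hjk hk'.2.1 hk'.2.2
      obtain ⟨μ, hμ⟩ : ∃ μ : Fin 6 → F, μ = fun m => if m = k then -d k else d m := ⟨_, rfl⟩
      have hdiag : ∀ m, act (z * u) (Pi.single m 1) = μ m • Pi.single m 1 := by
        intro r
        rw [act_mul, hσ, act_smul, hμ]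
        rcases mem_six h.hij h.hik h.hjk hk' hm hn hkm hkn hmn r with rfl | rfl | rfl | rfl | rfl | rfl
        · simp only [if_neg h.hik]
          rw [si, zr hm.1.symm hn.1.symm h.hik]
        · simp only [if_neg h.hjk]
          rw [sj, zr hm.2.1.symm hn.2.1.symm h.hjk]
        · simp only [if_true]
          rw [hσk, zk, smul_smul, mul_neg_one]
        · simp only [if_neg hk'.2.2]
          rw [sk', zr hkm hkn hk'.2.2]
        · simp only [if_neg hm.2.2]
          rw [smn, zn]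
        · simp only [if_neg hn.2.2]
          rw [snm, zm]
      have hprod := prod_of_diag hdiag
      rw [prod_six h.hij h.hik h.hjk hk' hm hn hkm hkn hmn, hμ] at hprod
      simp only [if_true, if_neg h.hik, if_neg h.hjk, if_neg hk'.2.2, if_neg hm.2.2, if_neg hn.2.2] at hprod
      rw [e1, e4, e5] at hprod
      apply h.h2
      linear_combination -hprod - (d k ^ 4) * hdm - (d k * d k + 1) * hε
    · have e1 : d k' = d k := by
        obtain ⟨μ, hμ⟩ : ∃ μ : Fin 6 → F, μ = fun m => if m = i then c ^ q * d i else if m = j then c * d j else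
          d m := ⟨_, rfl⟩
        have hdiag : ∀ m, act (z * (x * u)) (Pi.single m 1) = μ m • Pi.single m 1 := by
          intro r
          rw [act_mul, act_mul, hσ, act_smul, act_smul, hμ]
          rcases mem_six h.hij h.hik h.hjk hk' hm hn hkm hkn hmn r with rfl | rfl | rfl | rfl | rfl | rfl
          · simp only [if_true]
            rw [si, h.xj, act_smul, zr hm.1.symm hn.1.symm h.hik, smul_smul, mul_comm]
          · simp only [if_true, if_neg h.hij.symm]
            rw [sj, h.xi, act_smul, zr hm.2.1.symm hn.2.1.symm h.hjk, smul_smul, mul_comm]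
          · simp only [if_neg h.hik.symm, if_neg h.hjk.symm]
            rw [hσk, h.xk, act_smul, zk, smul_smul, smul_smul]
            congr 1
            ring
          · simp only [if_neg hk'.1, if_neg hk'.2.1]
            rw [sk', h.xm hk'.1 hk'.2.1 hk'.2.2, zr hkm hkn hk'.2.2]
          · simp only [if_neg hm.1, if_neg hm.2.1]
            rw [smn, h.xm hn.1 hn.2.1 hn.2.2, zn]
          · simp only [if_neg hn.1, if_neg hn.2.1]
            rw [snm, h.xm hm.1 hm.2.1 hm.2.2, zm]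
        have hprod := prod_of_diag hdiag
        rw [prod_six h.hij h.hik h.hjk hk' hm hn hkm hkn hmn, hμ] at hprod
        simp only [if_true, if_neg h.hij.symm, if_neg h.hik.symm, if_neg h.hjk.symm, if_neg hk'.1, if_neg hk'.2.1,
          if_neg hm.1, if_neg hm.2.1, if_neg hn.1, if_neg hn.2.1] at hprod
        have e6 := hdd i
        rw [si] at e6
        have e7 : c ^ q * d i * (c * d j) = 1 := by linear_combination (c * c ^ q) * e6 + h.hc
        rw [e7, one_mul] at hprod
        have e8 : d k * d k' = 1 := by linear_combination hprod - (d k * d k') * hdm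
        linear_combination d k * e8 - d k' * hε
      have e6 := hdd i
      rw [si] at e6
      exact h.last hk' hm hn hkm hkn hmn (hsgn k hσk) e1 hdm e6 hcd (by rw [hσ, si]) (by rw [hσ, sj])
        (by rw [hσ, hσk]) (by rw [hσ, sk']) (by rw [hσ, smn]) (by rw [hσ, snm])
  -- the permutation on the three indices
  have hout : ∀ {l : Fin 6}, (l ≠ i ∧ l ≠ j ∧ l ≠ k) → (σ l ≠ i ∧ σ l ≠ j ∧ σ l ≠ k) := by
    intro l hl
    refine ⟨fun h0 => ?_, fun h0 => ?_, fun h0 => ?_⟩
    · have h1 : l = σ i := by rw [← h0, hσσ]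
      rcases hσij with ⟨si, sj⟩ | ⟨si, sj, -⟩
      · exact hl.1 (h1.trans si)
      · exact hl.2.1 (h1.trans si)
    · have h1 : l = σ j := by rw [← h0, hσσ]
      rcases hσij with ⟨si, sj⟩ | ⟨si, sj, -⟩
      · exact hl.2.1 (h1.trans sj)
      · exact hl.1 (h1.trans sj)
    · have h1 : l = σ k := by rw [← h0, hσσ]
      exact hl.2.2 (h1.trans hσk)
  have hσl : ∀ {l : Fin 6}, (l ≠ i ∧ l ≠ j ∧ l ≠ k) → σ l = l1 ∨ σ l = l2 ∨ σ l = l3 := by
    intro l hl
    rcases mem_six h.hij h.hik h.hjk hl1 hl2 hl3 h12 h13 h23 (σ l) with h1 | h1 | h1 | h1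
    · exact ((hout hl).1 h1).elim
    · exact ((hout hl).2.1 h1).elim
    · exact ((hout hl).2.2 h1).elim
    · exact h1
  rcases hσl hl1 with s1 | s1 | s1
  · rcases hσl hl2 with s2 | s2 | s2
    · exact (h12 (σ.injective (s1.trans s2.symm))).elim
    · rcases hσl hl3 with s3 | s3 | s3
      · exact (h13 (σ.injective (s1.trans s3.symm))).elim
      · exact (h23 (σ.injective (s2.trans s3.symm))).elim
      · exact (hA s1 s2 s3).elim
    · exact hB hl1 hl2 hl3 h12 h13 h23 s1 s2
  · -- `σ l1 = l2`, `σ l3 = l3`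
    have s2 : σ l2 = l1 := by rw [← s1, hσσ]
    rcases hσl hl3 with s3 | s3 | s3
    · exact (h23 (σ.injective (s2.trans s3.symm))).elim
    · exact (h13 (σ.injective (s1.trans s3.symm))).elim
    · exact hB hl3 hl1 hl2 h13.symm h23.symm h12 s3 s1
  · -- `σ l1 = l3`, `σ l2 = l2`
    have s3 : σ l3 = l1 := by rw [← s1, hσσ]
    rcases hσl hl2 with s2 | s2 | s2
    · exact (h23 (σ.injective (s2.trans s3.symm))).elim
    · exact hB hl2 hl1 hl3 h12.symm h23 h13 s2 s1
    · exact (h12 (σ.injective (s1.trans s2.symm))).elim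

end Cf

end Cfsg.Agent.H913.Fr
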