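import Cfsg.Agent.H913.Frame6C

/-!
# Orthonormal frames in `SU_6(q)`, `q` odd (helper913)

`eq_top`: a subgroup of `SU_6(q)`, `q` odd, containing all monomial elements and a non-monomial one is everything.
-/

set_option autoImplicit false
set_option linter.unusedSectionVars false

namespace Cfsg.Agent.H913.Fr

open Module Cfsg Cfsg.Agent.LieClassical.HermBasic Cfsg.Agent.LieClassical.HermSiegel
open Cfsg.Agent.H927

variable {F : Type*} [Field F] [Fintype F] {q : ℕ}

theorem exists_a (hF : Fintype.card F = q ^ 2) (hq : 3 ≤ q) :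
    ∃ a : F, a * a ^ q = 1 ∧ a ^ 2 ≠ 1 ∧ a ^ 3 ≠ 1 := by
  obtain ⟨ζ, hζ0, hζ⟩ := Cfsg.Agent.H913.UExt.exists_prim hF
  have h1 : ζ ^ (q ^ 2 - 1) = 1 := by
    rw [← hF]; exact FiniteField.pow_card_sub_one_eq_one ζ hζ0
  have h2 : q ^ 2 - 1 = (q - 1) * (q + 1) := by
    obtain ⟨t, rfl⟩ : ∃ t, q = t + 1 := ⟨q - 1, by omega⟩
    simp only [Nat.add_sub_cancel]
    have : (t + 1) ^ 2 = t * (t + 1 + 1) + 1 := by ring
    omega
  have h3 : ∀ m, 0 < m → m < q + 1 → (ζ ^ (q - 1)) ^ m ≠ 1 := by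
    intro m hm0 hm h4
    rw [← pow_mul] at h4
    have h5 := hζ _ h4
    rw [h2] at h5
    have h6 := Nat.dvd_of_mul_dvd_mul_left (by omega) h5
    have h7 := Nat.le_of_dvd hm0 h6
    omega
  refine ⟨ζ ^ (q - 1), ?_, h3 2 (by norm_num) (by omega), h3 3 (by norm_num) (by omega)⟩
  rw [← pow_succ', ← pow_mul, ← h2, h1]

theorem two_ne_zero' (hF : Fintype.card F = q ^ 2) (hq : Odd q) : (2 : F) ≠ 0 := by
  obtain ⟨p, k, hp, hchar, hk, hk0⟩ := exists_prime_pow hF
  intro h0
  have h1 : ((2 : ℕ) : F) = 0 := by exact_mod_cast h0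
  rw [CharP.cast_eq_zero_iff F p] at h1
  have h2 := (Nat.prime_dvd_prime_iff_eq hp Nat.prime_two).1 h1
  rw [hk, h2] at hq
  exact (Nat.not_even_iff_odd.2 hq) (Even.pow_of_ne_zero (by decide) (by omega))

theorem x_sq {c : F} (hc : c * c ^ q = 1) {i j k : Fin 6} (hij : i ≠ j) (hik : i ≠ k) (hjk : j ≠ k)
    {x : SU 6 F q} (hx : ∀ v, act x v =
      v + (c ^ q * v j - v i) • (Pi.single i 1 - c • Pi.single j 1) + (-2 * v k) • Pi.single k 1) :
    x * x = 1 := by
  apply act_ext
  intro v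
  rw [act_mul, act_one]
  have e1 : act x v i = c ^ q * v j := by
    rw [hx]
    simp only [Pi.add_apply, Pi.smul_apply, Pi.sub_apply, Pi.single_eq_same, Pi.single_eq_of_ne hij,
      Pi.single_eq_of_ne hik, smul_eq_mul]
    ring
  have e2 : act x v j = c * v i := by
    rw [hx]
    simp only [Pi.add_apply, Pi.smul_apply, Pi.sub_apply, Pi.single_eq_same, Pi.single_eq_of_ne hij.symm,
      Pi.single_eq_of_ne hjk, smul_eq_mul]
    linear_combination (-v j) * hc
  have e3 : act x v k = - v k := by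
    rw [hx]
    simp only [Pi.add_apply, Pi.smul_apply, Pi.sub_apply, Pi.single_eq_same, Pi.single_eq_of_ne hik.symm,
      Pi.single_eq_of_ne hjk.symm, smul_eq_mul]
    ring
  rw [hx (act x v), e1, e2, e3, hx v]
  have e4 : v + (c ^ q * v j - v i) • (Pi.single i 1 - c • Pi.single j 1) + (-2 * v k) • Pi.single k 1 +
      (c ^ q * (c * v i) - c ^ q * v j) • (Pi.single i 1 - c • Pi.single j 1) + (-2 * -v k) • Pi.single k 1 =
      v + (v i * (c * c ^ q - 1)) • (Pi.single i 1 - c • Pi.single j 1 : Fin 6 → F) := by module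
  rw [e4, hc, sub_self, mul_zero, zero_smul, add_zero]

/-- **a subgroup of `SU_6(q)`, `q` odd, containing the monomial elements and a non-monomial one is everything** -/
theorem eq_top (hF : Fintype.card F = q ^ 2) (hq : Odd q) (hq3 : 3 ≤ q) {X : Subgroup (SU 6 F q)}
    (hG : ∀ g : SU 6 F q, IsMono g → g ∈ X) {g : SU 6 F q} (hg : g ∈ X) (hgn : ¬ IsMono g) : X = ⊤ := by
  classical
  by_contra hX
  obtain ⟨a, ha, ha2, ha3⟩ := exists_a hF hq3
  have h : Hy X a :=
    { hF := hF
      mono := hG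
      fix := fun y hy k c hk => by
        by_contra hny
        exact hX (eq_top_of_fix hF hG (by norm_num) hq3 hy hny hk)
      ha := ha
      ha2 := ha2
      ha3 := ha3
      h2 := two_ne_zero' hF hq }
  have h2 := h.h2
  obtain ⟨t, htm, ht'⟩ := exists_tau (n := 6) hF (a := (-1 : F)) (by rw [neg_pow_q hF, one_pow]; ring)
    (i := 0) (j := 1) (by decide)
  have ht : ∀ x, act t x = x + (-2 * x 0) • Pi.single 0 1 + (-2 * x 1) • Pi.single 1 1 := by
    intro x
    rw [ht', neg_pow_q hF, one_pow]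
    congr 3 <;> ring
  obtain ⟨y, hy⟩ : ∃ y, y = g * t * g⁻¹ := ⟨_, rfl⟩
  have hyX : y ∈ X := by rw [hy]; exact X.mul_mem (X.mul_mem hg (hG t htm)) (X.inv_mem hg)
  have hyn : ¬ IsMono y := fun h0 => hgn (h.mono_of_conj_invol hg (by decide) ht (by rw [← hy]; exact h0))
  have htt : t * t = 1 := by
    apply act_ext
    intro x
    rw [act_mul, act_one, ht, ht]
    have e1 : (Pi.single (0 : Fin 6) (1 : F) : Fin 6 → F) 1 = 0 := rfl
    have e2 : (Pi.single (1 : Fin 6) (1 : F) : Fin 6 → F) 0 = 0 := rfl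
    simp only [Pi.add_apply, Pi.smul_apply, Pi.single_eq_same, e1, e2,
      smul_eq_mul, mul_zero, mul_one, add_zero]
    module
  have hyy : y * y = 1 := by
    rw [hy]
    calc g * t * g⁻¹ * (g * t * g⁻¹) = g * (t * t) * g⁻¹ := by group
      _ = 1 := by rw [htt, mul_one, mul_inv_cancel]
  obtain ⟨f, hf⟩ : ∃ f, f = act g (Pi.single 0 1) := ⟨_, rfl⟩
  obtain ⟨f', hf'⟩ : ∃ f', f' = act g (Pi.single 1 1) := ⟨_, rfl⟩
  have hyv : ∀ v, act y v = v + (-2 * hermForm 6 F q v f) • f + (-2 * hermForm 6 F q v f') • f' := by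
    intro v
    rw [hy, hf, hf']
    exact act_conj hF ht v
  have hff : hermForm 6 F q f f = 1 := by rw [hf]; exact h.norm_act g 0
  have hff' : hermForm 6 F q f' f' = 1 := by rw [hf']; exact h.norm_act g 1
  have hff0 : hermForm 6 F q f f' = 0 := by rw [hf, hf']; exact h.orth_act g (by decide)
  have hff0' : hermForm 6 F q f' f = 0 := by rw [hf, hf']; exact h.orth_act g (by decide)
  -- the lemma `Z`
  have hZ : ∀ {i j k : Fin 6} {c : F}, c * c ^ q = 1 → i ≠ j → i ≠ k → j ≠ k →
      (∀ v, act y v = -v → v j = -c * v i) ∨ ∃ v, v ≠ 0 ∧ act y v = -v ∧ v k = 0 ∧ v j = -c * v i := by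
    intro i j k c hc hij hik hjk
    obtain ⟨x, hxm, hx⟩ := exists_x (n := 6) hF hc hij hik hjk
    have hxx := x_sq hc hij hik hjk hx
    have hxX := hG x hxm
    have hpos : 0 < orderOf (x * y) := orderOf_pos _
    obtain ⟨m, hm | hm⟩ := Nat.even_or_odd' (orderOf (x * y))
    · -- even
      obtain ⟨u, hu⟩ : ∃ u, u = (x * y) ^ m := ⟨_, rfl⟩
      have h1 := comm_of_even hxx hyy (m := m) (by rw [← two_mul, ← hm, pow_orderOf_eq_one])
      rw [← hu] at h1
      have huX : u ∈ X := by rw [hu]; exact X.pow_mem (X.mul_mem hxX hyX) _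
      have hu1 : u ≠ 1 := by
        rw [hu]
        exact pow_ne_one_of_lt_orderOf (by omega) (by omega)
      have hxk : act x (Pi.single k 1) = (-1 : F) • Pi.single k 1 := by
        rw [hx, Pi.single_eq_same, Pi.single_eq_of_ne hik, Pi.single_eq_of_ne hjk]
        module
      have hxr : ∀ {m : Fin 6}, m ≠ i → m ≠ j → m ≠ k → act x (Pi.single m 1) = (-(-1) : F) • Pi.single m 1 := by
        intro m h1 h2 h3
        rw [hx, Pi.single_eq_of_ne (Ne.symm h1), Pi.single_eq_of_ne (Ne.symm h2), Pi.single_eq_of_ne (Ne.symm h3)]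
        module
      obtain ⟨m1, m2, hm1, hm2, h12⟩ : ∃ m1 m2 : Fin 6, m1 ∈ (Finset.univ \ {i, j, k} : Finset (Fin 6)) ∧
          m2 ∈ (Finset.univ \ {i, j, k} : Finset (Fin 6)) ∧ m1 ≠ m2 := by
        apply Finset.one_lt_card_iff.1
        rw [Finset.card_sdiff_of_subset (Finset.subset_univ _), Finset.card_univ, Fintype.card_fin]
        have : ({i, j, k} : Finset (Fin 6)).card ≤ 3 := Finset.card_le_three
        omega
      simp only [Finset.mem_sdiff, Finset.mem_univ, true_and, Finset.mem_insert, Finset.mem_singleton, not_or] at hm1 hm2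
      have humono : IsMono u := h.mono_of_comm (by norm_num) h1.2.1 huX (Or.inr rfl) h12 hxk
        (hxr hm1.1 hm1.2.1 hm1.2.2) (hxr hm2.1 hm2.2.1 hm2.2.2)
      have hWx : ∀ v, ∃ α β γ δ : F, act x v - v =
          α • (Pi.single i 1 - c • Pi.single j 1) + β • Pi.single k 1 + γ • f + δ • f' := fun v =>
        ⟨c ^ q * v j - v i, -2 * v k, 0, 0, by rw [hx]; module⟩
      have hWy : ∀ v, ∃ α β γ δ : F, act y v - v =
          α • (Pi.single i 1 - c • Pi.single j 1) + β • Pi.single k 1 + γ • f + δ • f' := fun v =>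
        ⟨0, 0, -2 * hermForm 6 F q v f, -2 * hermForm 6 F q v f', by rw [hyv]; module⟩
      have hWm : ∀ {z w : SU 6 F q}, (∀ v, ∃ α β γ δ : F, act z v - v =
          α • (Pi.single i 1 - c • Pi.single j 1) + β • Pi.single k 1 + γ • f + δ • f') →
          (∀ v, ∃ α β γ δ : F, act w v - v =
          α • (Pi.single i 1 - c • Pi.single j 1) + β • Pi.single k 1 + γ • f + δ • f') →
          ∀ v, ∃ α β γ δ : F, act (z * w) v - v =
          α • (Pi.single i 1 - c • Pi.single j 1) + β • Pi.single k 1 + γ • f + δ • f' := by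
        intro z w hz hw v
        obtain ⟨α, β, γ, δ, e1⟩ := hz (act w v)
        obtain ⟨α', β', γ', δ', e2⟩ := hw v
        refine ⟨α + α', β + β', γ + γ', δ + δ', ?_⟩
        rw [act_mul, ← sub_add_sub_cancel _ (act w v), e1, e2]
        module
      have hW : ∀ m : ℕ, ∀ v, ∃ α β γ δ : F, act ((x * y) ^ m) v - v =
          α • (Pi.single i 1 - c • Pi.single j 1) + β • Pi.single k 1 + γ • f + δ • f' := by
        intro m
        induction m with
        | zero => intro v; exact ⟨0, 0, 0, 0, by rw [pow_zero, act_one]; module⟩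
        | succ m ih => rw [pow_succ]; exact hWm ih (hWm hWx hWy)
      exact Cf.main (x := x) (u := u) (f := f) (f' := f')
        { toHy := h
          hc := hc
          hij := hij
          hik := hik
          hjk := hjk
          hx := hx
          hy := hyv
          hf := hff
          hf' := hff'
          hff := hff0
          hyX := hyX
          hyn := hyn
          hu := humono
          huX := huX
          huu := h1.1
          hux := h1.2.1.symm
          huy := h1.2.2.symm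
          hu1 := hu1
          hW := by rw [hu]; exact hW m }
    · -- odd
      exfalso
      have h1 := conj_of_odd hxx hyy (m := m) (by rw [← hm, pow_orderOf_eq_one])
      obtain ⟨D, hD⟩ : ∃ D, D = (x * y) ^ m := ⟨_, rfl⟩
      rw [← hD] at h1
      have hDX : D ∈ X := by rw [hD]; exact X.pow_mem (X.mul_mem hxX hyX) _
      have h3 : x = (D⁻¹ * g) * t * (D⁻¹ * g)⁻¹ := by
        rw [hy] at h1
        calc x = D⁻¹ * (D * x * D⁻¹) * D := by group
          _ = D⁻¹ * (g * t * g⁻¹) * D := by rw [h1]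
          _ = (D⁻¹ * g) * t * (D⁻¹ * g)⁻¹ := by group
      have h4 : IsMono (D⁻¹ * g) := h.mono_of_conj_invol (X.mul_mem (X.inv_mem hDX) hg) (by decide) ht
        (by rw [← h3]; exact hxm)
      obtain ⟨m', e, he⟩ := mono_inv h4 i
      obtain ⟨s, hs⟩ : ∃ s : F, act t (Pi.single m' 1) = s • Pi.single m' 1 ∧ s ≠ 0 := by
        rw [ht]
        by_cases h5 : m' = 0
        · subst h5
          have e1 : (Pi.single (0 : Fin 6) (1 : F) : Fin 6 → F) 1 = 0 := rfl
          exact ⟨-1, by rw [Pi.single_eq_same, e1]; module, neg_ne_zero.2 one_ne_zero⟩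
        by_cases h6 : m' = 1
        · subst h6
          have e1 : (Pi.single (1 : Fin 6) (1 : F) : Fin 6 → F) 0 = 0 := rfl
          exact ⟨-1, by rw [Pi.single_eq_same, e1]; module, neg_ne_zero.2 one_ne_zero⟩
        · exact ⟨1, by rw [Pi.single_eq_of_ne (Ne.symm h5), Pi.single_eq_of_ne (Ne.symm h6)]; module, one_ne_zero⟩
      have h5 : act x (Pi.single i 1) = s • Pi.single i 1 := by
        rw [h3, act_mul, act_mul, he, act_smul, hs.1, smul_comm, act_smul, ← he, act_act_inv]
      rw [hx, Pi.single_eq_same, Pi.single_eq_of_ne hij.symm, Pi.single_eq_of_ne hik.symm] at h5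
      have h6 := congrFun h5 i
      simp only [Pi.add_apply, Pi.smul_apply, Pi.sub_apply, Pi.single_eq_same, Pi.single_eq_of_ne hij,
        Pi.single_eq_of_ne hik, smul_eq_mul] at h6
      apply hs.2
      linear_combination -h6
  -- facts about the eigenspace
  have hA : ∀ v, act y v = -v → ∃ γ δ : F, v = γ • f + δ • f' := by
    intro v hv
    refine ⟨hermForm 6 F q v f, hermForm 6 F q v f', ?_⟩
    rw [hyv] at hv
    have h1 : (2 : F) • (v - (hermForm 6 F q v f • f + hermForm 6 F q v f' • f')) = 0 := by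
      have : (2 : F) • (v - (hermForm 6 F q v f • f + hermForm 6 F q v f' • f')) =
        (v + (-2 * hermForm 6 F q v f) • f + (-2 * hermForm 6 F q v f') • f') - (-v) := by module
      rw [this, hv, sub_self]
    exact sub_eq_zero.1 ((smul_eq_zero.1 h1).resolve_left h2)
  have hyf : act y f = -f := by rw [hyv, hff, hff0]; module
  have hyf' : act y f' = -f' := by rw [hyv, hff', hff0']; module
  have hne : ∀ m : Fin 6, ∃ v, act y v = -v ∧ v m ≠ 0 := by
    intro m
    by_contra hcon
    push Not at hcon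
    apply hyn
    refine h.fix y hyX m 1 ?_
    rw [hyv, H927.herm_single_left, H927.herm_single_left, hcon f hyf, hcon f' hyf', zero_pow_q hF]
    module
  have hdep : ∀ {v w : Fin 6 → F}, v ≠ 0 → w ≠ 0 → act y v = -v → act y w = -w → v 0 = 0 → w 0 = 0 →
      ∃ s t : F, s ≠ 0 ∧ t ≠ 0 ∧ s • v + t • w = 0 := by
    intro v w hv0 hw0 hv hw hv00 hw00
    by_contra hcon
    push Not at hcon
    obtain ⟨z, hz, hz0⟩ := hne 0
    obtain ⟨s, t, hst⟩ := span_swap (e1 := v) (e2 := w) (f1 := f) (f2 := f') (fun s t h0 => by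
      by_cases hs : s = 0
      · rw [hs, zero_smul, zero_add] at h0
        exact ⟨hs, (smul_eq_zero.1 h0).resolve_right hw0⟩
      · by_cases ht : t = 0
        · rw [ht, zero_smul, add_zero] at h0
          exact ⟨(smul_eq_zero.1 h0).resolve_right hv0, ht⟩
        · exact (hcon s t hs ht h0).elim) (hA v hv) (hA w hw) (x := z) (hA z hz)
    apply hz0
    rw [hst, Pi.add_apply, Pi.smul_apply, Pi.smul_apply, hv00, hw00, smul_zero, smul_zero, add_zero]
  have hpair : ∀ {i j : Fin 6}, i ≠ j → i ≠ 0 → j ≠ 0 → ∃ v, v ≠ 0 ∧ act y v = -v ∧ v 0 = 0 ∧ v i = 0 := by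
    intro i j hij hi0 hj0
    have htwo : ∀ {c c' : F}, c * c ^ q = 1 → c' * c' ^ q = 1 → c ≠ c' →
        (∃ v, v ≠ 0 ∧ act y v = -v ∧ v 0 = 0 ∧ v i = 0) ∨
          (∀ v, act y v = -v → v j = -c * v i) ∨ (∀ v, act y v = -v → v j = -c' * v i) := by
      intro c c' hc hc' hcc
      rcases hZ (k := 0) hc hij hi0 hj0 with h1 | ⟨v, hv0, hv, hv00, hvj⟩
      · exact Or.inr (Or.inl h1)
      rcases hZ (k := 0) hc' hij hi0 hj0 with h1 | ⟨w, hw0, hw, hw00, hwj⟩
      · exact Or.inr (Or.inr h1)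
      left
      refine ⟨v, hv0, hv, hv00, ?_⟩
      obtain ⟨s, t, hs, ht, hst⟩ := hdep hv0 hw0 hv hw hv00 hw00
      have e1 := congrFun hst i
      have e2 := congrFun hst j
      simp only [Pi.add_apply, Pi.smul_apply, smul_eq_mul, Pi.zero_apply] at e1 e2
      rw [hvj, hwj] at e2
      have e3 : ((c' - c) * s) * v i = 0 := by linear_combination e2 + c' * e1
      exact (mul_eq_zero.1 e3).resolve_left (mul_ne_zero (sub_ne_zero.2 (Ne.symm hcc)) hs)
    have hone : ∀ {c c' : F}, c ≠ c' → (∀ v, act y v = -v → v j = -c * v i) →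
        (∀ v, act y v = -v → v j = -c' * v i) → False := by
      intro c c' hcc h1 h3
      obtain ⟨v, hv, hv0⟩ := hne i
      have e1 := h1 v hv
      have e2 := h3 v hv
      have e3 : (c' - c) * v i = 0 := by linear_combination e2 - e1
      exact (mul_ne_zero (sub_ne_zero.2 (Ne.symm hcc)) hv0) e3
    have ha1 : a ≠ 1 := fun h0 => ha2 (by rw [h0]; ring)
    have ham : a ≠ -1 := fun h0 => ha2 (by rw [h0]; ring)
    have h1m : (1 : F) ≠ -1 := fun h0 => h2 (by linear_combination h0)
    have c1 : (1 : F) * 1 ^ q = 1 := by rw [one_pow, mul_one]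
    have cm : (-1 : F) * (-1) ^ q = 1 := by rw [neg_pow_q hF, one_pow]; ring
    rcases htwo ha c1 ha1 with h3 | h3 | h3
    · exact h3
    · rcases htwo c1 cm h1m with h4 | h4 | h4
      · exact h4
      · exact (hone ha1 h3 h4).elim
      · exact (hone ham h3 h4).elim
    · rcases htwo ha cm ham with h4 | h4 | h4
      · exact h4
      · exact (hone ha1 h4 h3).elim
      · exact (hone h1m h3 h4).elim
  obtain ⟨v, hv0, hv, hv00, -⟩ := hpair (i := 1) (j := 2) (by decide) (by decide) (by decide)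
  apply hv0
  funext m
  rw [Pi.zero_apply]
  by_cases hm : m = 0
  · rw [hm, hv00]
  obtain ⟨m', hm'⟩ : ∃ m' : Fin 6, m ≠ m' ∧ m' ≠ 0 := by
    by_cases h5 : m = 1
    · exact ⟨2, by rw [h5]; decide, by decide⟩
    · exact ⟨1, h5, by decide⟩
  obtain ⟨w, hw0, hw, hw00, hwm⟩ := hpair hm'.1 hm hm'.2
  obtain ⟨s, t, hs, ht, hst⟩ := hdep hv0 hw0 hv hw hv00 hw00
  have e1 := congrFun hst m
  simp only [Pi.add_apply, Pi.smul_apply, smul_eq_mul, Pi.zero_apply, hwm, mul_zero, add_zero] at e1
  exact (mul_eq_zero.1 e1).resolve_left hs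

end Cfsg.Agent.H913.Fr
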