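import Cfsg.Agent.H913.UExt8

/-!
# Overgroups of `GU_2(q^5)` in `SU_10(q)`, the dichotomy for `r = 5` (helper913)
-/

set_option autoImplicit false
set_option linter.unusedSectionVars false

namespace Cfsg.Agent.H913.UExt

open Module
open Cfsg.Agent.LieClassical.HermBasic
open Cfsg.Agent.H879 (Has apply_inv_apply inv_apply_apply)

variable {F K V : Type*} [Field F] [Fintype F] [Field K] [Fintype K] [Algebra F K]
  [AddCommGroup V] [Module F V] [Module K V] [IsScalarTower F K V]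

/-- the arithmetic behind the separation of the two coordinates -/
theorem five_arith {q p s j : ℕ} (hp : p.Prime) (hs : 0 < s) (hq : q = p ^ s) (hj : j < 10 * s)
    (h : (q ^ 10 - 1) ∣ (q + 1) * (q ^ 3 + 1) * p ^ j + (q ^ 10 - 2) * ((q + 1) * (q + 1))) : False := by
  have hp2 := hp.two_le
  have hq2 : 2 ≤ q := by
    rw [hq]
    calc 2 ≤ p := hp2
      _ = p ^ 1 := (pow_one p).symm
      _ ≤ p ^ s := Nat.pow_le_pow_right (by omega) hs
  have hq10 : 1024 ≤ q ^ 10 := by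
    calc 1024 = 2 ^ 10 := by norm_num
      _ ≤ q ^ 10 := Nat.pow_le_pow_left hq2 10
  -- in integers
  have h1 : ((q : ℤ) ^ 10 - 1) ∣ ((q : ℤ) + 1) * ((q : ℤ) ^ 3 + 1) * (p : ℤ) ^ j -
      ((q : ℤ) + 1) * ((q : ℤ) + 1) := by
    have h2 : (((q ^ 10 - 1 : ℕ)) : ℤ) ∣ (((q + 1) * (q ^ 3 + 1) * p ^ j + (q ^ 10 - 2) * ((q + 1) * (q + 1)) : ℕ) : ℤ) :=
      Int.natCast_dvd_natCast.2 h
    have e1 : (((q ^ 10 - 1 : ℕ)) : ℤ) = (q : ℤ) ^ 10 - 1 := by
      rw [Nat.cast_sub (by omega)]; push_cast; ring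
    have e2 : (((q ^ 10 - 2 : ℕ)) : ℤ) = (q : ℤ) ^ 10 - 2 := by
      rw [Nat.cast_sub (by omega)]; push_cast; ring
    rw [e1] at h2
    rw [Nat.cast_add, Nat.cast_mul (q ^ 10 - 2), e2] at h2
    push_cast at h2
    have e3 : ((q : ℤ) + 1) * ((q : ℤ) ^ 3 + 1) * (p : ℤ) ^ j - ((q : ℤ) + 1) * ((q : ℤ) + 1) =
        ((q : ℤ) + 1) * ((q : ℤ) ^ 3 + 1) * (p : ℤ) ^ j + ((q : ℤ) ^ 10 - 2) * (((q : ℤ) + 1) * ((q : ℤ) + 1))
          - ((q : ℤ) ^ 10 - 1) * (((q : ℤ) + 1) * ((q : ℤ) + 1)) := by ring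
    rw [e3]
    exact dvd_sub h2 (dvd_mul_right _ _)
  set z : ℤ := (q : ℤ) with hz
  have hz2 : 2 ≤ z := by rw [hz]; exact_mod_cast hq2
  set N : ℤ := (z - 1) * (1 + z ^ 2 + z ^ 4 + z ^ 6 + z ^ 8) with hN
  have hfac : z ^ 10 - 1 = (z + 1) * N := by rw [hN]; ring
  have h3 : N ∣ (z ^ 3 + 1) * (p : ℤ) ^ j - (z + 1) := by
    rw [hfac] at h1
    have e4 : (z + 1) * (z ^ 3 + 1) * (p : ℤ) ^ j - (z + 1) * (z + 1) =
        (z + 1) * ((z ^ 3 + 1) * (p : ℤ) ^ j - (z + 1)) := by ring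
    rw [e4] at h1
    exact (mul_dvd_mul_iff_left (by omega : z + 1 ≠ 0)).1 h1
  have hNpos : 0 < N := by
    rw [hN]
    have : 0 < 1 + z ^ 2 + z ^ 4 + z ^ 6 + z ^ 8 := by positivity
    exact mul_pos (by omega) this
  have hbig : (z ^ 3 + 1) * z ^ 5 < N := by
    rw [hN]
    have h8 : (0 : ℤ) ≤ (z - 2) := by omega
    have e5 : (z - 1) * (1 + z ^ 2 + z ^ 4 + z ^ 6 + z ^ 8) - (z ^ 3 + 1) * z ^ 5 =
        (z - 2) * z ^ 8 + (z - 2) * z ^ 6 + (z ^ 2 - 1) * z ^ 4 + (z - 1) * z ^ 2 + (z - 1) := by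
      ring
    have e7 : 0 ≤ (z ^ 2 - 1) * z ^ 4 := mul_nonneg (by nlinarith) (by positivity)
    have e8 : 0 ≤ (z - 2) * z ^ 8 := mul_nonneg h8 (by positivity)
    have e9 : 0 ≤ (z - 2) * z ^ 6 := mul_nonneg h8 (by positivity)
    have e10 : 0 ≤ (z - 1) * z ^ 2 := mul_nonneg (by omega) (by positivity)
    have e11 : 0 < z - 1 := by omega
    linarith
  have hq5 : (p : ℤ) ^ (5 * s) = z ^ 5 := by
    rw [hz, hq]; push_cast; rw [← pow_mul, mul_comm]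
  have hz1 : z + 1 < z ^ 3 + 1 := by
    have : 0 < z * (z ^ 2 - 1) := mul_pos (by omega) (by nlinarith)
    nlinarith
  rcases le_or_gt j (5 * s) with hj5 | hj5
  · -- small exponent
    have hpj : (p : ℤ) ^ j ≤ z ^ 5 := by
      rw [← hq5]; exact pow_le_pow_right₀ (by exact_mod_cast hp.one_lt.le) hj5
    have hpj1 : (1 : ℤ) ≤ (p : ℤ) ^ j := by exact_mod_cast Nat.one_le_pow _ _ hp.pos
    have h4 : 0 < (z ^ 3 + 1) * (p : ℤ) ^ j - (z + 1) := by
      have : (z ^ 3 + 1) * 1 ≤ (z ^ 3 + 1) * (p : ℤ) ^ j := mul_le_mul_of_nonneg_left hpj1 (by positivity)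
      linarith
    have h5 := Int.le_of_dvd h4 h3
    have h6 : (z ^ 3 + 1) * (p : ℤ) ^ j ≤ (z ^ 3 + 1) * z ^ 5 := mul_le_mul_of_nonneg_left hpj (by positivity)
    linarith
  · -- big exponent
    obtain ⟨t, ht⟩ : ∃ t, 10 * s = j + t := ⟨10 * s - j, by omega⟩
    have ht5 : t ≤ 5 * s := by omega
    have hpt : (p : ℤ) ^ t ≤ z ^ 5 := by
      rw [← hq5]; exact pow_le_pow_right₀ (by exact_mod_cast hp.one_lt.le) ht5
    have hpt1 : (1 : ℤ) ≤ (p : ℤ) ^ t := by exact_mod_cast Nat.one_le_pow _ _ hp.pos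
    have hz10 : (p : ℤ) ^ j * (p : ℤ) ^ t = z ^ 10 := by
      rw [← pow_add, ← ht, hz, hq]; push_cast; rw [← pow_mul, mul_comm]
    have h4 : N ∣ (z ^ 3 + 1) - (z + 1) * (p : ℤ) ^ t := by
      have h5 : N ∣ ((z ^ 3 + 1) * (p : ℤ) ^ j - (z + 1)) * (p : ℤ) ^ t := dvd_mul_of_dvd_left h3 _
      have e5 : (z ^ 3 + 1) - (z + 1) * (p : ℤ) ^ t =
          ((z ^ 3 + 1) * (p : ℤ) ^ j - (z + 1)) * (p : ℤ) ^ t - N * ((z + 1) * (z ^ 3 + 1)) := by
        have : N * ((z + 1) * (z ^ 3 + 1)) = (z ^ 10 - 1) * (z ^ 3 + 1) := by rw [hfac]; ring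
        rw [this, ← hz10]; ring
      rw [e5]
      exact dvd_sub h5 (dvd_mul_right _ _)
    have h6 : (z + 1) * (p : ℤ) ^ t ≤ (z + 1) * z ^ 5 := mul_le_mul_of_nonneg_left hpt (by omega)
    have h7 : (z + 1) * z ^ 5 < (z ^ 3 + 1) * z ^ 5 := mul_lt_mul_of_pos_right hz1 (by positivity)
    have h8 : z ^ 3 + 1 ≤ (z ^ 3 + 1) * z ^ 5 := by
      have : (1 : ℤ) ≤ z ^ 5 := by
        have : 0 < z ^ 5 := by positivity
        omega
      nlinarith [pow_pos (by omega : 0 < z) 3]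
    have h9 : (z ^ 3 + 1) - (z + 1) * (p : ℤ) ^ t = 0 := by
      apply Int.eq_zero_of_abs_lt_dvd h4
      rw [abs_lt]
      constructor
      · have : 0 ≤ z ^ 3 + 1 := by positivity
        linarith
      · have : 0 < (z + 1) * (p : ℤ) ^ t := mul_pos (by omega) (by omega)
        linarith
    have h10 : z * (z - 1) + 1 = (p : ℤ) ^ t := by
      have e6 : (z + 1) * (z * (z - 1) + 1) = (z + 1) * (p : ℤ) ^ t := by linear_combination h9
      exact mul_left_cancel₀ (by omega : z + 1 ≠ 0) e6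
    have hpz : (p : ℤ) ∣ z := by
      rw [hz, hq]; push_cast; exact dvd_pow_self _ (by omega)
    rcases Nat.eq_zero_or_pos t with h0 | h0
    · rw [h0, pow_zero] at h10
      have : 0 < z * (z - 1) := mul_pos (by omega) (by omega)
      omega
    · have h11 : (p : ℤ) ∣ 1 := by
        have h12 : (p : ℤ) ∣ (p : ℤ) ^ t := dvd_pow_self _ (by omega)
        rw [← h10] at h12
        exact (Int.dvd_add_right (dvd_mul_of_dvd_left hpz _)).1 h12
      have h13 := Int.le_of_dvd one_pos h11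
      have h14 : (2 : ℤ) ≤ (p : ℤ) := by exact_mod_cast hp2
      omega

/-- the data for `r = 5` -/
structure Five (θ : V → V → K) (q Q : ℕ) (M : Subgroup (V ≃ₗ[F] V)) : Prop extends Hyp θ q Q M where
  five : finrank F K = 5

namespace Five

variable {θ : V → V → K} {q Q : ℕ} {M : Subgroup (V ≃ₗ[F] V)} (h : Five θ q Q M)
include h

theorem Q_eq : Q = q ^ 5 := by rw [h.toHyp.Q_eq, h.five]

theorem q2 : 2 ≤ q := two_le h.cardF

theorem pow10 (k : K) : k ^ (q ^ 10) = k := by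
  have := h.toHyp.QQ k
  rwa [h.Q_eq, ← pow_mul, ← pow_add] at this

theorem tr_eq (k : K) : algebraMap F K (Algebra.trace F K k) =
    k + k ^ (q ^ 2) + k ^ (q ^ 4) + k ^ (q ^ 6) + k ^ (q ^ 8) := by
  rw [FiniteField.algebraMap_trace_eq_sum_pow, h.five, Finset.sum_range_succ, Finset.sum_range_succ,
    Finset.sum_range_succ, Finset.sum_range_succ, Finset.sum_range_succ, Finset.sum_range_zero,
    Nat.card_eq_fintype_card, h.cardF, pow_zero, pow_one, pow_one, zero_add, ← pow_mul, ← pow_mul, ← pow_mul]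

/-- powers `k ^ (q ^ n)` -/
theorem pw_pw (k : K) (m n : ℕ) : (k ^ (q ^ m)) ^ (q ^ n) = k ^ (q ^ (m + n)) := by
  rw [← pow_mul, ← pow_add]

theorem pw_red (k : K) (n : ℕ) : k ^ (q ^ (10 + n)) = k ^ (q ^ n) := by
  rw [← h.pw_pw, h.pow10]

theorem addq (n : ℕ) (x y : K) : (x + y) ^ (q ^ n) = x ^ (q ^ n) + y ^ (q ^ n) := by
  obtain ⟨p, k, hp, hchar, hk, hk0⟩ := exists_prime_pow h.cardF
  have := Fact.mk hp
  have : CharP K p := charP_of_injective_algebraMap (algebraMap F K).injective p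
  rw [hk, ← pow_mul]
  exact add_pow_char_pow x y p (k * n)

theorem zeroq (n : ℕ) : (0 : K) ^ (q ^ n) = 0 := zero_pow (pow_ne_zero _ (q_pos h.cardF).ne')

theorem negq (n : ℕ) (x : K) : (-x) ^ (q ^ n) = - x ^ (q ^ n) := by
  have h1 := h.addq n x (-x)
  rw [add_neg_cancel, h.zeroq] at h1
  exact (neg_eq_of_add_eq_zero_right h1.symm).symm

/-- `x ↦ x + (y κ ^ (q^2) - y ^ (q^3) κ ^ (q^8) + z κ ^ (q^4) - z ^ q κ ^ (q^6)) a`, `κ = θ x a`, is in `M` -/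
def I (_h : Five θ q Q M) (a : V) (y z : K) : Prop :=
  HasL θ M a (fun κ => y * κ ^ (q ^ 2) - y ^ (q ^ 3) * κ ^ (q ^ 8)
    + (z * κ ^ (q ^ 4) - z ^ (q ^ 1) * κ ^ (q ^ 6)))

theorem I_add {a : V} (ha : θ a a = 0) {y z y' z' : K} (h1 : h.I a y z) (h2 : h.I a y' z') :
    h.I a (y + y') (z + z') := by
  have h3 := h.toHyp.hasL_add ha h1 h2
  refine h3.congr fun x => ?_
  congr 2
  rw [h.addq, h.addq]; ring

theorem I_neg {a : V} (ha : θ a a = 0) {y z : K} (h1 : h.I a y z) : h.I a (-y) (-z) := by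
  have h3 := h.toHyp.hasL_neg ha h1
  refine h3.congr fun x => ?_
  congr 2
  rw [h.negq, h.negq]; ring

theorem I_zero {a : V} : h.I a 0 0 := by
  have h3 := h.toHyp.hasL_zero (a := a)
  refine h3.congr fun x => ?_
  congr 2
  rw [h.zeroq, h.zeroq]; ring

theorem I_mul {a : V} (ha : θ a a = 0) (ha0 : a ≠ 0) {y z : K} (h1 : h.I a y z) {k : K} (hk : k ≠ 0) :
    h.I a ((k ^ (q + 1) * (k ^ (q + 1)) ^ (q ^ 7)) * y) ((k ^ (q + 1) * (k ^ (q + 1)) ^ (q ^ 9)) * z) := by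
  have h3 := h.toHyp.hasL_torus ha ha0 h1 hk
  set l := k ^ (q + 1) with hl
  refine h3.congr fun x => ?_
  congr 2
  rw [h.Q_eq]
  simp only [mul_pow, h.pw_pw]
  have e1 : l ^ (q ^ (5 + 8)) = l ^ (q ^ 3) := h.pw_red l 3
  have e2 : l ^ (q ^ (7 + 3)) = l := h.pow10 l
  have e3 : l ^ (q ^ (5 + 6)) = l ^ (q ^ 1) := h.pw_red l 1
  have e5 : l ^ (q ^ (5 + 2)) = l ^ (q ^ 7) := rfl
  have e6 : l ^ (q ^ (5 + 4)) = l ^ (q ^ 9) := rfl
  rw [e1, e2, e3, e5, e6]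
  ring

/-- the multiplier pairs -/
def R (h : Five θ q Q M) (a : V) (s t : K) : Prop := ∀ y z, h.I a y z → h.I a (s * y) (t * z)

theorem R_mul {a : V} {s t s' t' : K} (h1 : h.R a s t) (h2 : h.R a s' t') : h.R a (s * s') (t * t') := by
  intro y z hyz
  rw [mul_assoc, mul_assoc]
  exact h1 _ _ (h2 _ _ hyz)

theorem R_one {a : V} : h.R a 1 1 := by
  intro y z hyz
  rwa [one_mul, one_mul]

theorem R_pow {a : V} {s t : K} (h1 : h.R a s t) (n : ℕ) : h.R a (s ^ n) (t ^ n) := by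
  induction n with
  | zero => rw [pow_zero, pow_zero]; exact h.R_one
  | succ n ih => rw [pow_succ, pow_succ]; exact h.R_mul ih h1

theorem R_add {a : V} (ha : θ a a = 0) {s t s' t' : K} (h1 : h.R a s t) (h2 : h.R a s' t') :
    h.R a (s + s') (t + t') := by
  intro y z hyz
  rw [add_mul, add_mul]
  exact h.I_add ha (h1 _ _ hyz) (h2 _ _ hyz)

theorem R_neg {a : V} (ha : θ a a = 0) {s t : K} (h1 : h.R a s t) : h.R a (-s) (-t) := by
  intro y z hyz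
  rw [neg_mul, neg_mul]
  exact h.I_neg ha (h1 _ _ hyz)

theorem R_zero {a : V} : h.R a 0 0 := by
  intro y z _
  rw [zero_mul, zero_mul]
  exact h.I_zero

theorem R_natCast {a : V} (ha : θ a a = 0) (n : ℕ) : h.R a (n : K) (n : K) := by
  induction n with
  | zero => rw [Nat.cast_zero]; exact h.R_zero
  | succ n ih => rw [Nat.cast_succ]; exact h.R_add ha ih h.R_one

theorem R_intCast {a : V} (ha : θ a a = 0) (n : ℤ) : h.R a (n : K) (n : K) := by
  obtain ⟨m, rfl | rfl⟩ := n.eq_nat_or_neg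
  · rw [Int.cast_natCast]; exact h.R_natCast ha m
  · rw [Int.cast_neg, Int.cast_natCast]; exact h.R_neg ha (h.R_natCast ha m)

theorem R_poly {a : V} (ha : θ a a = 0) {s t : K} (h1 : h.R a s t) (f : Polynomial ℤ) :
    h.R a (Polynomial.aeval s f) (Polynomial.aeval t f) := by
  induction f using Polynomial.induction_on' with
  | add f g hf hg => rw [map_add, map_add]; exact h.R_add ha hf hg
  | monomial n c =>
    rw [Polynomial.aeval_monomial, Polynomial.aeval_monomial, eq_intCast]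
    exact h.R_mul (h.R_intCast ha c) (h.R_pow h1 n)

theorem inv_eq_pow (e : K) : e⁻¹ = e ^ (Fintype.card K - 2) ∨ e = 0 := by
  by_cases he0 : e = 0
  · exact Or.inr he0
  · left
    have h2 := FiniteField.pow_card_sub_one_eq_one e he0
    have h3 : 1 < Fintype.card K := Fintype.one_lt_card
    have h4 : Fintype.card K - 1 = (Fintype.card K - 2) + 1 := by omega
    rw [h4, pow_succ] at h2
    exact (eq_inv_of_mul_eq_one_left h2).symm

/-- the projections of the ring of multipliers -/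
def R1 {a : V} (ha : θ a a = 0) : Subfield K where
  carrier := {s | ∃ t, h.R a s t}
  mul_mem' := fun ⟨t, ht⟩ ⟨t', ht'⟩ => ⟨t * t', h.R_mul ht ht'⟩
  one_mem' := ⟨1, h.R_one⟩
  add_mem' := fun ⟨t, ht⟩ ⟨t', ht'⟩ => ⟨t + t', h.R_add ha ht ht'⟩
  zero_mem' := ⟨0, h.R_zero⟩
  neg_mem' := fun ⟨t, ht⟩ => ⟨-t, h.R_neg ha ht⟩
  inv_mem' := fun s ⟨t, ht⟩ => by
    rcases h.inv_eq_pow s with hs | hs
    · rw [hs]; exact ⟨_, h.R_pow ht _⟩
    · rw [hs, inv_zero]; exact ⟨0, h.R_zero⟩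

def R2 {a : V} (ha : θ a a = 0) : Subfield K where
  carrier := {t | ∃ s, h.R a s t}
  mul_mem' := fun ⟨t, ht⟩ ⟨t', ht'⟩ => ⟨t * t', h.R_mul ht ht'⟩
  one_mem' := ⟨1, h.R_one⟩
  add_mem' := fun ⟨t, ht⟩ ⟨t', ht'⟩ => ⟨t + t', h.R_add ha ht ht'⟩
  zero_mem' := ⟨0, h.R_zero⟩
  neg_mem' := fun ⟨t, ht⟩ => ⟨-t, h.R_neg ha ht⟩
  inv_mem' := fun s ⟨t, ht⟩ => by
    rcases h.inv_eq_pow s with hs | hs
    · rw [hs]; exact ⟨_, h.R_pow ht _⟩
    · rw [hs, inv_zero]; exact ⟨0, h.R_zero⟩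

/-- a subfield containing an element with a power equal to `ζ ^ m` for small `m` is everything -/
theorem top_of_mem {ζ : K} (hζ : ∀ n : ℕ, ζ ^ n = 1 → (Q ^ 2 - 1) ∣ n) (S : Subfield K) {ρ : K} (hρ : ρ ∈ S)
    (hρ0 : ρ ≠ 0) {e m : ℕ} (he : ρ ^ e = ζ ^ m) (hm0 : 0 < m) (hm : m < Q + 1) : S = ⊤ := by
  classical
  by_contra hne
  have hN := card_subfield_le h.cardK _ hne
  have : Fintype S := Fintype.ofFinite _
  have h1 : ρ ^ (Nat.card S - 1) = 1 := by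
    have h2 := FiniteField.pow_card_sub_one_eq_one (⟨ρ, hρ⟩ : S) (fun h0 => hρ0 (congrArg Subtype.val h0))
    rw [Nat.card_eq_fintype_card]
    exact congrArg Subtype.val h2
  have h2 : ζ ^ (m * (Nat.card S - 1)) = 1 := by
    rw [pow_mul, ← he, ← pow_mul, mul_comm, pow_mul, h1, one_pow]
  have h3 := hζ _ h2
  have hN2 : 2 ≤ Nat.card S := by
    rw [Nat.card_eq_fintype_card]
    exact Fintype.one_lt_card
  have h4 := Nat.le_of_dvd (Nat.mul_pos hm0 (by omega)) h3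
  have hQ1 : 1 < Q := two_le h.cardK
  have h8 : Q ^ 2 - 1 = (Q + 1) * (Q - 1) := by
    obtain ⟨t, rfl⟩ : ∃ t, Q = t + 1 := ⟨Q - 1, by omega⟩
    simp only [Nat.add_sub_cancel]
    have : (t + 1) ^ 2 = (t + 1 + 1) * t + 1 := by ring
    omega
  rw [h8] at h4
  have h9 : m * (Nat.card S - 1) ≤ m * (Q - 1) := Nat.mul_le_mul_left _ (by omega)
  have h10 : m * (Q - 1) < (Q + 1) * (Q - 1) := Nat.mul_lt_mul_of_pos_right hm (by omega)
  omega

/-- the two coordinates can be separated -/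
theorem exists_sep {a : V} (ha : θ a a = 0) (ha0 : a ≠ 0) : ∃ e : K, e ≠ 0 ∧ h.R a 0 e := by
  classical
  obtain ⟨p, s, hp, hchar, hk, hs0⟩ := exists_prime_pow h.cardF
  have := Fact.mk hp
  have : CharP K p := charP_of_injective_algebraMap (algebraMap F K).injective p
  letI : Algebra (ZMod p) K := ZMod.algebra K p
  have : Module.Finite (ZMod p) K := Module.Finite.of_finite
  obtain ⟨ζ, hζ0, hζ⟩ := exists_prim h.cardK
  set l := ζ ^ (q + 1) with hl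
  set ρ1 := l * l ^ (q ^ 7) with hρ1
  set ρ2 := l * l ^ (q ^ 9) with hρ2
  have hR : h.R a ρ1 ρ2 := fun y z hyz => h.I_mul ha ha0 hyz hζ0
  obtain ⟨f, hf⟩ := Polynomial.map_surjective (Int.castRingHom (ZMod p)) ZMod.intCast_surjective
    (minpoly (ZMod p) ρ1)
  have hev : ∀ x : K, Polynomial.aeval x f = Polynomial.aeval x (minpoly (ZMod p) ρ1) := by
    intro x
    rw [← hf]
    exact (Polynomial.aeval_map_algebraMap (ZMod p) x f).symm
  have h1 := h.R_poly ha hR f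
  rw [hev, hev, minpoly.aeval] at h1
  refine ⟨_, fun h0 => ?_, h1⟩
  -- otherwise `ρ2` is a conjugate of `ρ1`
  have hconj : IsConjRoot (ZMod p) ρ1 ρ2 :=
    isConjRoot_of_aeval_eq_zero (Algebra.IsIntegral.isIntegral ρ1) h0
  obtain ⟨σ, hσ⟩ := isConjRoot_iff_exists_algEquiv.1 hconj.symm
  obtain ⟨⟨n, hn⟩, hσn⟩ := (FiniteField.bijective_frobeniusAlgEquivOfAlgebraic_pow (ZMod p) K).2 σ
  have hσ' : ρ2 = ρ1 ^ (p ^ n) := by
    rw [← hσ, ← hσn]
    change (FiniteField.frobeniusAlgEquivOfAlgebraic (ZMod p) K ^ n) ρ1 = _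
    rw [AlgEquiv.coe_pow, FiniteField.coe_frobeniusAlgEquivOfAlgebraic_iterate, ZMod.card]
  -- degree
  have hdeg : finrank (ZMod p) K = 10 * s := by
    have h2 := Module.card_eq_pow_finrank (K := ZMod p) (V := K)
    rw [h.cardK, h.Q_eq, hk, ZMod.card, ← pow_mul, ← pow_mul] at h2
    have h3 := Nat.pow_right_injective hp.two_le h2
    omega
  rw [hdeg] at hn
  have hper : ∀ k : K, k ^ (p ^ (10 * s)) = k := by
    intro k
    have := h.pow10 k
    rwa [hk, ← pow_mul, mul_comm] at this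
  -- normalised exponents
  have e1 : ρ1 ^ (q ^ 3) = ζ ^ ((q + 1) * (q ^ 3 + 1)) := by
    have e2 : l ^ (q ^ (7 + 3)) = l := h.pow10 l
    rw [hρ1, mul_pow, h.pw_pw, e2, ← pow_succ, hl, ← pow_mul]
  have e3 : (ρ2 ^ (q ^ 3)) ^ (q ^ 8) = ζ ^ ((q + 1) * (q + 1)) := by
    have e4 : l ^ (q ^ (3 + 8)) = l ^ (q ^ 1) := h.pw_red l 1
    have e5 : l ^ (q ^ (9 + (3 + 8))) = l := by
      rw [show 9 + (3 + 8) = 10 + (10 + 0) from rfl, h.pw_red, h.pw_red, pow_zero, pow_one]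
    rw [h.pw_pw, hρ2, mul_pow, h.pw_pw, e4, e5, pow_one, ← pow_succ, hl, ← pow_mul]
  obtain ⟨j, hj, hje⟩ : ∃ j, j < 10 * s ∧ ∀ k : K, k ^ (p ^ (n + 8 * s)) = k ^ (p ^ j) := by
    rcases lt_or_ge (n + 8 * s) (10 * s) with h2 | h2
    · exact ⟨_, h2, fun k => rfl⟩
    · refine ⟨n + 8 * s - 10 * s, by omega, fun k => ?_⟩
      have e6 : n + 8 * s = 10 * s + (n + 8 * s - 10 * s) := by omega
      rw [e6, pow_add, pow_mul, hper, Nat.add_sub_cancel_left]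
  have e7 : ζ ^ ((q + 1) * (q ^ 3 + 1) * p ^ j) = ζ ^ ((q + 1) * (q + 1)) := by
    have e10 : p ^ (n + 8 * s) = p ^ n * q ^ 8 := by rw [pow_add, mul_comm 8 s, pow_mul p s 8, ← hk]
    rw [pow_mul, ← hje, ← e3, ← e1, hσ', ← pow_mul, ← pow_mul, ← pow_mul, e10]
    congr 1
    ring
  have h10 : 1 ≤ q ^ 10 := Nat.one_le_pow _ _ (q_pos h.cardF)
  have h1024 : 1024 ≤ q ^ 10 := by
    calc 1024 = 2 ^ 10 := by norm_num
      _ ≤ q ^ 10 := Nat.pow_le_pow_left h.q2 10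
  have hζ1 : ζ ^ (q ^ 10 - 1) = 1 := by
    have h2 := h.pow10 ζ
    have h3 : q ^ 10 = (q ^ 10 - 1) + 1 := by omega
    rw [h3, pow_succ] at h2
    exact mul_right_cancel₀ hζ0 (by rw [one_mul]; exact h2)
  have e8 : ζ ^ ((q + 1) * (q ^ 3 + 1) * p ^ j + (q ^ 10 - 2) * ((q + 1) * (q + 1))) = 1 := by
    rw [pow_add, e7, ← pow_add]
    have : (q + 1) * (q + 1) + (q ^ 10 - 2) * ((q + 1) * (q + 1)) = (q ^ 10 - 1) * ((q + 1) * (q + 1)) := by
      have h3 : q ^ 10 - 1 = (q ^ 10 - 2) + 1 := by omega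
      rw [h3]; ring
    rw [this, pow_mul, hζ1, one_pow]
  have h11 := hζ _ e8
  rw [h.Q_eq, ← pow_mul] at h11
  exact five_arith hp hs0 hk hj h11

theorem R_all {a : V} (ha : θ a a = 0) (ha0 : a ≠ 0) (s t : K) : h.R a s t := by
  obtain ⟨e, he0, he⟩ := h.exists_sep ha ha0
  obtain ⟨ζ, hζ0, hζ⟩ := exists_prim h.cardK
  set l := ζ ^ (q + 1) with hl
  have hl0 : l ≠ 0 := pow_ne_zero _ hζ0
  have hR : h.R a (l * l ^ (q ^ 7)) (l * l ^ (q ^ 9)) := fun y z hyz => h.I_mul ha ha0 hyz hζ0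
  have hq2 := h.q2
  have hQ := h.Q_eq
  have h1 : h.R1 ha = ⊤ := by
    refine h.top_of_mem hζ (h.R1 ha) (ρ := l * l ^ (q ^ 7)) ⟨_, hR⟩ (mul_ne_zero hl0 (pow_ne_zero _ hl0))
      (e := q ^ 3) (m := (q + 1) * (q ^ 3 + 1)) ?_ (by positivity) ?_
    · have e2 : l ^ (q ^ (7 + 3)) = l := h.pow10 l
      rw [mul_pow, h.pw_pw, e2, ← pow_succ, hl, ← pow_mul]
    · rw [hQ]
      obtain ⟨t, rfl⟩ : ∃ t, q = t + 2 := ⟨q - 2, by omega⟩
      have : (t + 2) ^ 5 + 1 = (t + 2 + 1) * ((t + 2) ^ 3 + 1) + (t ^ 5 + 9 * t ^ 4 + 31 * t ^ 3 + 50 * t ^ 2 + 35 * t + 6) := by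
        ring
      omega
  have h2 : h.R2 ha = ⊤ := by
    refine h.top_of_mem hζ (h.R2 ha) (ρ := l * l ^ (q ^ 9)) ⟨_, hR⟩ (mul_ne_zero hl0 (pow_ne_zero _ hl0))
      (e := q ^ 1) (m := (q + 1) * (q + 1)) ?_ (by positivity) ?_
    · have e2 : l ^ (q ^ (9 + 1)) = l := h.pow10 l
      rw [mul_pow, h.pw_pw, e2, pow_one, ← pow_succ, hl, ← pow_mul]
    · rw [hQ]
      obtain ⟨t, rfl⟩ : ∃ t, q = t + 2 := ⟨q - 2, by omega⟩
      have : (t + 2) ^ 5 + 1 = (t + 2 + 1) * (t + 2 + 1) + (t ^ 5 + 10 * t ^ 4 + 40 * t ^ 3 + 79 * t ^ 2 + 74 * t + 24) := by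
        ring
      omega
  have h3 : ∀ t : K, h.R a 0 t := by
    intro t
    have h4 : t / e ∈ h.R2 ha := by rw [h2]; trivial
    obtain ⟨s', hs'⟩ := h4
    have h5 := h.R_mul hs' he
    rwa [mul_zero, div_mul_cancel₀ _ he0] at h5
  obtain ⟨t', ht'⟩ : s ∈ h.R1 ha := by rw [h1]; trivial
  have h6 := h.R_add ha ht' (h3 (t - t'))
  rwa [add_zero, add_sub_cancel] at h6

theorem I_all {a : V} (ha : θ a a = 0) (ha0 : a ≠ 0) {y0 z0 : K} (hy0 : y0 ≠ 0) (hz0 : z0 ≠ 0)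
    (h1 : h.I a y0 z0) (y z : K) : h.I a y z := by
  have h2 := h.R_all ha ha0 (y / y0) (z / z0) y0 z0 h1
  rwa [div_mul_cancel₀ _ hy0, div_mul_cancel₀ _ hz0] at h2

theorem hasT_of_I {a : V} (ha : θ a a = 0) (h1 : ∀ y z, h.I a y z) (k : K) : HasT F θ q M (k • a) := by
  intro e he
  set E := algebraMap F K e with hE
  have hEq : E ^ q = -E := by rw [hE, ← map_pow, he, map_neg]
  have hEQ : E ^ Q = -E := by rw [hE, h.algQ, he, map_neg]
  have hE1 : E ^ (q ^ 1) = -E := by rw [pow_one, hEq]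
  have hE2 : E ^ (q ^ 2) = E := by
    rw [pow_two, pow_mul, hEq, ← pow_one q, h.negq, pow_one, hEq, neg_neg]
  have hE3 : E ^ (q ^ 3) = -E := by
    rw [pow_succ, pow_mul, hE2, hEq]
  have hI := h1 (E * (k * (k ^ Q) ^ (q ^ 2))) (E * (k * (k ^ Q) ^ (q ^ 4)))
  have hT := h.toHyp.hasL_kt ha (l := E * k ^ Q * k) (by
    rw [mul_pow, mul_pow, hEQ, h.toHyp.QQ]; ring)
  refine (h.toHyp.hasL_add ha hT hI).congr fun x => ?_
  rw [h.toHyp.smul_right, ← algebraMap_smul K (e * _) (k • a), smul_smul, map_mul, h.tr_eq]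
  congr 2
  rw [h.Q_eq]
  simp only [mul_pow, h.pw_pw, hE1, hE3]
  have e1 : k ^ (q ^ (5 + 8)) = k ^ (q ^ 3) := h.pw_red k 3
  have e2 : k ^ (q ^ (5 + 2 + 3)) = k := h.pow10 k
  have e3 : k ^ (q ^ (5 + 6)) = k ^ (q ^ 1) := h.pw_red k 1
  have e4 : k ^ (q ^ (5 + 4 + 1)) = k := h.pow10 k
  rw [e1, e2, e3]
  ring

theorem fin_of_four {τ : K} (h4 : τ ^ (q ^ 4) = τ) : τ ^ (q ^ 2) = τ := by
  have h8 : τ ^ (q ^ 8) = τ := by
    rw [show (8 : ℕ) = 4 + 4 from rfl, ← h.pw_pw, h4, h4]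
  have h10 := h.pow10 τ
  rw [show (10 : ℕ) = 8 + 2 from rfl, ← h.pw_pw, h8] at h10
  exact h10

/-- `l1 / l0` is not an eigenvector for `-1` -/
theorem not_neg {l0 l1 : K} (hl00 : l0 ≠ 0) (hind : ∀ c : F, l1 ≠ c • l0) {j : ℕ} (hj : j = 2 ∨ j = 4)
    (h0 : l0 ^ (q ^ j) * l1 + l1 ^ (q ^ j) * l0 = 0) : False := by
  set τ := l1 / l0 with hτ
  have hl1τ : l1 = τ * l0 := by rw [hτ, div_mul_cancel₀ _ hl00]
  have h2 : τ ^ (q ^ j) = -τ := by
    rw [hl1τ, mul_pow] at h0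
    have h3 : (l0 ^ (q ^ j) * l0) * (τ + τ ^ (q ^ j)) = 0 := by linear_combination h0
    have h4 := (mul_eq_zero.1 h3).resolve_left (mul_ne_zero (pow_ne_zero _ hl00) hl00)
    linear_combination h4
  have h5 : τ ^ (q ^ (5 * j)) = -τ := by
    have e : 5 * j = j + j + j + j + j := by ring
    rw [e, ← h.pw_pw, ← h.pw_pw, ← h.pw_pw, ← h.pw_pw, h2, h.negq, h2, neg_neg, h2, h.negq, h2, neg_neg, h2]
  have h6 : τ ^ (q ^ (5 * j)) = τ := by
    rcases hj with rfl | rfl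
    · exact h.pow10 τ
    · rw [show 5 * 4 = 10 + (10 + 0) from rfl, h.pw_red, h.pw_red, pow_zero, pow_one]
  have h7 : τ ^ (q ^ j) = τ := by rw [h2, ← h5, h6]
  have h8 : τ ^ (q ^ 2) = τ := by
    rcases hj with rfl | rfl
    · exact h7
    · exact h.fin_of_four h7
  obtain ⟨c, hc⟩ := mem_F_of_pow (F := F) (τ := τ) (by rw [h.cardF]; exact h8)
  exact hind c (by rw [Algebra.smul_def, hc, ← hl1τ])

theorem exists_yz {g : V ≃ₗ[F] V} (hg : g ∈ M) {a v : V} (ha : θ a a = 0) (hv : θ v v = 0)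
    (hth : ∀ k : K, θ (g (k • v)) a = algebraMap F K (Algebra.trace F K k)) :
    ∃ y z : K, y ≠ 0 ∧ z ≠ 0 ∧ h.I a y z := by
  obtain ⟨l0, l1, hl0, hl1, ht0, ht1, hl00, hind⟩ := h.toHyp.exists_two (by rw [h.five]; norm_num)
  obtain ⟨m, hm, hmt⟩ := h.toHyp.exists_skew_tr_ne
  obtain ⟨e, he0, he⟩ := exists_trace_zero_ne h.cardF
  set E := algebraMap F K e with hE
  have hE0 : E ≠ 0 := fun h0 => he0 ((algebraMap F K).injective (by rw [← hE, h0, map_zero]))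
  have heq : e ^ q = -e := by linear_combination he
  have hEq : E ^ q = -E := by rw [hE, ← map_pow, heq, map_neg]
  have hEQ : E ^ Q = -E := by rw [hE, h.algQ, heq, map_neg]
  have hE2 : E ^ (q ^ 2) = E := by
    rw [pow_two, pow_mul, hEq, ← pow_one q, h.negq, pow_one, hEq, neg_neg]
  have hE4 : E ^ (q ^ 4) = E := by
    rw [show (4 : ℕ) = 2 + 2 from rfl, ← h.pw_pw, hE2, hE2]
  have hElQ : ∀ {l : K}, l ^ Q = l → (E * l) ^ Q = -(E * l) := fun {l} hl => by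
    rw [mul_pow, hEQ, hl]; ring
  have htE : ∀ {l : K}, Algebra.trace F K l = 0 → Algebra.trace F K (E * l) = 0 := fun {l} hl => by
    rw [hE, ← Algebra.smul_def, map_smul, hl, smul_zero]
  have hEE := h.toHyp.has_E hg ha hv hth (hElQ hl0) (hElQ hl1) hm (htE ht0) (htE ht1)
  set μ := Algebra.trace F K m with hμ
  set U := algebraMap F K μ with hU
  have hU0 : U ≠ 0 := fun h0 => hmt ((algebraMap F K).injective (by rw [← hU, h0, map_zero]))
  have hμq : μ ^ q = -μ := by rw [hμ, ← h.trQ, hm, map_neg]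
  have hUq : U ^ q = -U := by rw [hU, ← map_pow, hμq, map_neg]
  have hUQ : U ^ Q = -U := by rw [hU, h.algQ, hμq, map_neg]
  have hU1 : U ^ (q ^ 1) = -U := by rw [pow_one, hUq]
  have hU2 : U ^ (q ^ 2) = U := by
    rw [pow_two, pow_mul, hUq, ← pow_one q, h.negq, pow_one, hUq, neg_neg]
  have hU3 : U ^ (q ^ 3) = -U := by
    rw [pow_succ, pow_mul, hU2, hUq]
  set l := E * l0 with hl
  set l' := E * l1 with hl'
  have hlQ := hElQ hl0
  have hlQ' := hElQ hl1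
  rw [← hl] at hlQ
  rw [← hl'] at hlQ'
  have hT := h.toHyp.hasL_kt ha (l := 2 * U * l * l') (by
    have h2 : (2 : K) ^ Q = 2 := by
      have : (2 : K) = algebraMap F K 2 := by rw [map_ofNat]
      rw [this, h.algQ]
      congr 1
      rw [← one_add_one_eq_two, add_pow_q h.cardF, one_pow]
    rw [mul_pow, mul_pow, mul_pow, h2, hUQ, hlQ, hlQ']; ring)
  refine ⟨-U * (l ^ (q ^ 2) * l' + l' ^ (q ^ 2) * l), -U * (l ^ (q ^ 4) * l' + l' ^ (q ^ 4) * l), ?_, ?_, ?_⟩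
  · refine mul_ne_zero (neg_ne_zero.2 hU0) fun h0 => ?_
    refine h.not_neg hl00 hind (j := 2) (Or.inl rfl) ?_
    have h2 : E * E * (l0 ^ (q ^ 2) * l1 + l1 ^ (q ^ 2) * l0) = 0 := by
      rw [← h0, hl, hl', mul_pow, mul_pow, hE2]; ring
    exact (mul_eq_zero.1 h2).resolve_left (mul_ne_zero hE0 hE0)
  · refine mul_ne_zero (neg_ne_zero.2 hU0) fun h0 => ?_
    refine h.not_neg hl00 hind (j := 4) (Or.inr rfl) ?_
    have h2 : E * E * (l0 ^ (q ^ 4) * l1 + l1 ^ (q ^ 4) * l0) = 0 := by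
      rw [← h0, hl, hl', mul_pow, mul_pow, hE4]; ring
    exact (mul_eq_zero.1 h2).resolve_left (mul_ne_zero hE0 hE0)
  · have h6 := h.toHyp.hasL_add ha (L := fun κ => U * (algebraMap F K (Algebra.trace F K (l ^ Q * κ))) * l'
      + U * (algebraMap F K (Algebra.trace F K (l' ^ Q * κ))) * l) (L' := fun κ => 2 * U * l * l' * κ) ?_ hT
    · refine h6.congr fun x => ?_
      congr 2
      have hl5 : l ^ (q ^ 5) = -l := by rw [← h.Q_eq, hlQ]
      have hl5' : l' ^ (q ^ 5) = -l' := by rw [← h.Q_eq, hlQ']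
      have hs : ∀ {k : K}, k ^ (q ^ 5) = -k → ∀ n, k ^ (q ^ (5 + n)) = - k ^ (q ^ n) := by
        intro k hk n
        rw [← h.pw_pw, hk, h.negq]
      have e1 : l ^ (q ^ 6) = - l ^ (q ^ 1) := hs hl5 1
      have e1' : l' ^ (q ^ 6) = - l' ^ (q ^ 1) := hs hl5' 1
      have e2 : l ^ (q ^ 8) = - l ^ (q ^ 3) := hs hl5 3
      have e2' : l' ^ (q ^ 8) = - l' ^ (q ^ 3) := hs hl5' 3
      have e3 : l ^ (q ^ (2 + 3)) = - l := hl5
      have e3' : l' ^ (q ^ (2 + 3)) = - l' := hl5'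
      have e4 : l ^ (q ^ (4 + 1)) = - l := hl5
      have e4' : l' ^ (q ^ (4 + 1)) = - l' := hl5'
      simp only [h.tr_eq, hlQ, hlQ', mul_pow, h.addq, h.negq, hU1, hU3, h.pw_pw, e1, e1', e2, e2', e3, e3',
        e4, e4']
      ring
    · refine hEE.congr fun x => ?_
      rw [h.toHyp.smul_right, h.toHyp.smul_right, add_smul, ← add_assoc]
      congr 1
      · congr 1
        rw [← algebraMap_smul K (μ * _) (l' • a), smul_smul, map_mul]
      · rw [← algebraMap_smul K (μ * _) (l • a), smul_smul, map_mul]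

/-- **the dichotomy for `r = 5`** -/
theorem dichotomy : (∀ g ∈ M, ∀ k : K, ∃ k' : K, ∀ x, g (k • x) = k' • g x) ∨
    ∀ y : V, Algebra.trace F K (θ y y) = 0 → HasT F θ q M y := by
  by_cases hZ : ZP θ M
  · left
    obtain ⟨ζ, hζ0, hζ⟩ := exists_prim h.cardK
    have hQ1 : 1 < Q := two_le h.cardK
    have h8 : Q ^ 2 - 1 = (Q - 1) * (Q + 1) := by
      obtain ⟨t, rfl⟩ : ∃ t, Q = t + 1 := ⟨Q - 1, by omega⟩
      simp only [Nat.add_sub_cancel]
      have : (t + 1) ^ 2 = t * (t + 1 + 1) + 1 := by ring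
      omega
    have hζQ : ζ ^ (Q ^ 2 - 1) = 1 := by
      rw [← h.cardK]; exact FiniteField.pow_card_sub_one_eq_one ζ hζ0
    have hd : ζ ^ (Q - 1) * (ζ ^ (Q - 1)) ^ Q = 1 := by
      rw [← pow_succ', ← pow_mul, ← h8, hζQ]
    intro g hg k
    refine h.toHyp.semilinear_of_Z (by rw [h.five]; norm_num) hZ hd (fun c hc => ?_) hg k
    -- `ζ ^ ((Q - 1) * (q + 1))` is not in `F`
    have hc0 : c ≠ 0 := by
      rintro rfl
      rw [map_zero] at hc
      exact pow_ne_zero _ (pow_ne_zero _ hζ0) hc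
    have h1 : c ^ (q ^ 2 - 1) = 1 := by
      rw [← h.cardF]; exact FiniteField.pow_card_sub_one_eq_one c hc0
    have h2 : ζ ^ ((Q - 1) * (q + 1) * (q ^ 2 - 1)) = 1 := by
      rw [pow_mul, pow_mul, hc, ← map_pow, h1, map_one]
    have h3 := hζ _ h2
    rw [h8, mul_assoc] at h3
    have h4 : (Q + 1) ∣ (q + 1) * (q ^ 2 - 1) := Nat.dvd_of_mul_dvd_mul_left (by omega) h3
    have hq2 := h.q2
    have h9 : 4 ≤ q ^ 2 := by nlinarith
    have h7 := Nat.le_of_dvd (Nat.mul_pos (by omega) (by omega)) h4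
    rw [h.Q_eq] at h7
    have h10 : (q + 1) * (q ^ 2 - 1) ≤ (q + 1) * q ^ 2 := Nat.mul_le_mul_left _ (by omega)
    obtain ⟨t, rfl⟩ : ∃ t, q = t + 2 := ⟨q - 2, by omega⟩
    have : (t + 2) ^ 5 = (t + 2 + 1) * (t + 2) ^ 2 + (t ^ 5 + 10 * t ^ 4 + 39 * t ^ 3 + 73 * t ^ 2 + 64 * t + 20) := by
      ring
    omega
  · right
    obtain ⟨g, hg, a, v, ha, hv, hth⟩ := h.toHyp.exists_normal (fun C h1 h2 => by
      rcases Nat.lt_or_ge (finrank F C) 3 with h3 | h3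
      · exact h.toHyp.good_of_two (by rw [h.five]; norm_num) (by rw [h.five]; norm_num) (by omega)
      · exact h.toHyp.good_of_big (by rw [h.five]; omega) h2) hZ
    have ha0 : a ≠ 0 := by
      rintro rfl
      obtain ⟨l, -, hl⟩ := h.toHyp.exists_skew_tr_ne
      apply hl
      apply (algebraMap F K).injective
      rw [← hth, h.toHyp.zero_right, map_zero]
    obtain ⟨y, z, hy0, hz0, hyz⟩ := h.exists_yz hg ha hv hth
    intro x hx
    exact h.toHyp.hasT_all ha ha0 (h.hasT_of_I ha (h.I_all ha ha0 hy0 hz0 hyz)) hx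

end Five

end Cfsg.Agent.H913.UExt
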