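import Cfsg.Agent.H913.UExt7
import Cfsg.Agent.H913.UExt9

/-!
# The normaliser of an adjoint-closed field of degree five in `SU_10(q)` (helper913)
-/

set_option autoImplicit false
set_option linter.unusedSectionVars false

namespace Cfsg.Agent.H913.UExt

open Module Cfsg Cfsg.Geo
open scoped MatrixGroups Matrix
open Cfsg.Agent.LieClassical.HermBasic
open Cfsg.Agent.H918 (SUg)

universe u

variable {F : Type u} [Field F] [Fintype F]

/-- **the normaliser of an adjoint-closed field of degree five is maximal in `SU_10(q)`** -/
theorem quintic_maximal {q : ℕ} (hF : Fintype.card F = q ^ 2)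
    {K : Subalgebra F (Matrix (Fin 10) (Fin 10) F)} (hK : IsFieldSubalgebra 5 K)
    (hadj : IsAdjointClosedFor (hermForm 10 F q) K) :
    IsMaximalIn (SUg 10 F q) (subalgebraNormalizer K ⊓ SUg 10 F q) := by
  refine maximal_of_dichotomy hF (r := 5) (by norm_num) (by norm_num) (by decide) hK hadj ?_
  intro K' _ _ _ _ _ θ M hH h5
  exact Five.dichotomy { toHyp := hH, five := h5 }

end Cfsg.Agent.H913.UExt
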